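/-
S5815 (maximal subgroups of `Ω₇(q)` in the residual class): definitions and the statements of the pieces.
Proofs of the pieces: `notes/O7.md`.
-/
import Cfsg.Agent.H11.Bridge
import Cfsg.Agent.H12.RQ1
import Cfsg.Agent.H12.GeoForm
import Cfsg.Agent.H8.EAG2a
import Cfsg.Prelude.Def_KGroupFacts
import Cfsg.Prelude.Def_SporadicB

set_option autoImplicit false
set_option linter.unusedSectionVars false

open Module QuadraticMap H12 Cfsg MatrixGroups Subgroup
namespace H26.O7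
universe u v

abbrev ι : Type := Unit ⊕ (Fin 3 ⊕ Fin 3)
abbrev V (K : Type u) : Type u := ι → K
/-- the spin module (split octonions) -/
abbrev S (K : Type u) : Type u := Fin 8 → K
abbrev Q (K : Type u) [Field K] : QuadraticForm K (V K) := H11.qOdd 3 K
abbrev Au (K : Type u) [Field K] (M : Type u) [AddCommGroup M] [Module K M] : Type u := M ≃ₗ[K] M

section
variable {K : Type u} [Field K] {M : Type u} [AddCommGroup M] [Module K M]

/-- rank of `g - 1` -/
noncomputable def rk (g : Au K M) : ℕ := finrank K (LinearMap.range ((g : M →ₗ[K] M) - 1))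
/-- fixed space -/
def fix (g : Au K M) : Submodule K M := LinearMap.ker ((g : M →ₗ[K] M) - 1)

theorem mem_fix {g : Au K M} {x : M} : x ∈ fix g ↔ g x = x := sub_eq_zero
theorem rk_add_fix [FiniteDimensional K M] (g : Au K M) : rk g + finrank K (fix g) = finrank K M :=
  LinearMap.finrank_range_add_finrank_ker _
theorem rk_one : rk (1 : Au K M) = 0 := by
  rw [rk, show ((1 : Au K M) : M →ₗ[K] M) - 1 = 0 from sub_self _, LinearMap.range_zero, finrank_bot]
theorem fix_conj (h g : Au K M) : fix (h * g * h⁻¹) = (fix g).map (h : M →ₗ[K] M) := by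
  ext x
  rw [Submodule.mem_map_equiv, mem_fix, mem_fix]
  exact (h.eq_symm_apply (x := x) (y := g (h.symm x))).symm
theorem rk_conj [FiniteDimensional K M] (h g : Au K M) : rk (h * g * h⁻¹) = rk g := by
  have a := rk_add_fix (h * g * h⁻¹)
  have b := rk_add_fix g
  rw [fix_conj, LinearEquiv.finrank_map_eq] at a
  omega
theorem fix_inv (g : Au K M) : fix g⁻¹ = fix g := by
  ext x
  rw [mem_fix, mem_fix]
  exact (g.symm_apply_eq (x := x) (y := x)).trans eq_comm
theorem rk_inv [FiniteDimensional K M] (g : Au K M) : rk g⁻¹ = rk g := by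
  have a := rk_add_fix g⁻¹
  have b := rk_add_fix g
  rw [fix_inv] at a
  omega
theorem eq_one_of_rk [FiniteDimensional K M] {g : Au K M} (h : rk g = 0) : g = 1 := by
  have a := rk_add_fix g
  have := Submodule.eq_top_of_finrank_eq (S := fix g) (by omega)
  exact LinearEquiv.ext fun x => mem_fix.1 (this ▸ trivial)
theorem fx3 [FiniteDimensional K M] (a b c : Au K M) (h : rk a + rk b + rk c < finrank K M) :
    ∃ x, x ≠ 0 ∧ a x = x ∧ b x = x ∧ c x = x := by
  have := rk_add_fix a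
  have := rk_add_fix b
  have := rk_add_fix c
  have := Submodule.finrank_sup_add_finrank_inf_eq (fix a) (fix b)
  have := Submodule.finrank_sup_add_finrank_inf_eq (fix a ⊓ fix b) (fix c)
  have := (fix a ⊔ fix b).finrank_le
  have := (fix a ⊓ fix b ⊔ fix c).finrank_le
  obtain ⟨x, hx, x0⟩ := (Submodule.ne_bot_iff _).1 (Submodule.one_le_finrank_iff.1
    (by omega : 1 ≤ finrank K ↥(fix a ⊓ fix b ⊓ fix c)))
  exact ⟨x, x0, mem_fix.1 hx.1.1, mem_fix.1 hx.1.2, mem_fix.1 hx.2⟩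

theorem finrank_V : finrank K (V K) = 7 := by simp
theorem finrank_S : finrank K (S K) = 8 := by simp
theorem Q_nd (h : (2 : K) ≠ 0) : QNondeg (Q K) := H11.qOdd_nondeg h 3

/-- the traceless octonion of a vector -/
def emb (x : V K) : S K := ![x (.inl ()), x (.inr (.inl 0)), x (.inr (.inl 1)), x (.inr (.inl 2)),
  x (.inr (.inr 0)), x (.inr (.inr 1)), x (.inr (.inr 2)), -x (.inl ())]

section
variable (x : V K) (s : S K)
local notation "𝐱" => x (Sum.inl ())
local notation "𝐚" i:max => x (Sum.inr (Sum.inl i))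
local notation "𝐛" i:max => x (Sum.inr (Sum.inr i))
local notation "𝐋" => Lie.zornMul (emb x) s
theorem zm0 : 𝐋 0 = 𝐱 * s 0 + (𝐚 0 * s 4 + 𝐚 1 * s 5 + 𝐚 2 * s 6) := rfl
theorem zm1 : 𝐋 1 = 𝐱 * s 1 + s 7 * 𝐚 0 - (𝐛 1 * s 6 - 𝐛 2 * s 5) := rfl
theorem zm2 : 𝐋 2 = 𝐱 * s 2 + s 7 * 𝐚 1 - (𝐛 2 * s 4 - 𝐛 0 * s 6) := rfl
theorem zm3 : 𝐋 3 = 𝐱 * s 3 + s 7 * 𝐚 2 - (𝐛 0 * s 5 - 𝐛 1 * s 4) := rfl
theorem zm4 : 𝐋 4 = s 0 * 𝐛 0 + -𝐱 * s 4 + (𝐚 1 * s 3 - 𝐚 2 * s 2) := rfl
theorem zm5 : 𝐋 5 = s 0 * 𝐛 1 + -𝐱 * s 5 + (𝐚 2 * s 1 - 𝐚 0 * s 3) := rfl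
theorem zm6 : 𝐋 6 = s 0 * 𝐛 2 + -𝐱 * s 6 + (𝐚 0 * s 2 - 𝐚 1 * s 1) := rfl
theorem zm7 : 𝐋 7 = 𝐛 0 * s 1 + 𝐛 1 * s 2 + 𝐛 2 * s 3 + -𝐱 * s 7 := rfl
end

/-- Clifford multiplication -/
def L : V K →ₗ[K] S K →ₗ[K] S K := by
  refine LinearMap.mk₂ K (fun x s => Lie.zornMul (emb x) s) (fun x y s => ?_) (fun c x s => ?_) (fun x s t => ?_)
    fun c x s => ?_ <;> refine H8.fin8_ext ?_ ?_ ?_ ?_ ?_ ?_ ?_ ?_ <;>
    simp only [zm0, zm1, zm2, zm3, zm4, zm5, zm6, zm7, Pi.add_apply, Pi.smul_apply, smul_eq_mul] <;> ring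

theorem L_apply (x : V K) (s : S K) : L x s = Lie.zornMul (emb x) s := rfl

variable (K) in
/-- the norm of the octonions -/
def Nm : QuadraticForm K (S K) := proj 0 7 - proj 1 4 - proj 2 5 - proj 3 6

theorem Nm_apply (s : S K) : Nm K s = s 0 * s 7 - s 1 * s 4 - s 2 * s 5 - s 3 * s 6 := by simp [Nm]
theorem Q_apply (x : V K) : Q K x = x (.inl ()) ^ 2 + x (.inr (.inl 0)) * x (.inr (.inr 0)) +
    x (.inr (.inl 1)) * x (.inr (.inr 1)) + x (.inr (.inl 2)) * x (.inr (.inr 2)) := by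
  simp [quadFormOdd, Fin.sum_univ_three, add_assoc]
theorem polar_Nm (s t : S K) : polar (Nm K) s t = s 0 * t 7 + s 7 * t 0 - s 1 * t 4 - s 4 * t 1 - s 2 * t 5 - s 5 * t 2
    - s 3 * t 6 - s 6 * t 3 := by simp only [polar, Nm_apply, Pi.add_apply]; ring
theorem Nm_nd : QNondeg (Nm K) := fun s h => by
  have k : ∀ i, polar (Nm K) s (Pi.single i 1) = 0 := fun i => h _
  have := k 0; have := k 1; have := k 2; have := k 3; have := k 4; have := k 5; have := k 6; have := k 7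
  refine H8.fin8_ext ?_ ?_ ?_ ?_ ?_ ?_ ?_ ?_ <;> simp_all [polar_Nm]
theorem L_L (x : V K) (s : S K) : L x (L x s) = Q K x • s := by
  refine H8.fin8_ext ?_ ?_ ?_ ?_ ?_ ?_ ?_ ?_ <;>
    simp only [L_apply, Q_apply, zm0, zm1, zm2, zm3, zm4, zm5, zm6, zm7, Pi.smul_apply, smul_eq_mul] <;> ring
theorem L_anti (x y : V K) (s : S K) : L x (L y s) + L y (L x s) = polar (Q K) x y • s := by
  have := L_L (x + y) s
  simp only [map_add, LinearMap.add_apply, L_L, Q_add, add_smul] at this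
  linear_combination (norm := module) this
theorem Nm_L (x : V K) (s : S K) : Nm K (L x s) = -Q K x * Nm K s := by
  simp only [L_apply, Q_apply, Nm_apply, zm0, zm1, zm2, zm3, zm4, zm5, zm6, zm7]; ring
theorem polar_L_skew (x : V K) (s t : S K) : polar (Nm K) (L x s) t = -polar (Nm K) s (L x t) := by
  simp only [L_apply, polar_Nm, zm0, zm1, zm2, zm3, zm4, zm5, zm6, zm7]; ring
theorem polar_L_self (x : V K) (s : S K) : polar (Nm K) (L x s) s = 0 := by
  simp only [L_apply, polar_Nm, zm0, zm1, zm2, zm3, zm4, zm5, zm6, zm7]; ring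
theorem polar_LL (x y : V K) (s : S K) : polar (Nm K) (L x s) (L y s) = -polar (Q K) x y * Nm K s := by
  have := Nm_L (x + y) s
  rw [map_add, LinearMap.add_apply, Q_add, Q_add, Nm_L, Nm_L] at this
  linear_combination this
theorem polar_L (x : V K) (s t : S K) : polar (Nm K) (L x s) (L x t) = -Q K x * polar (Nm K) s t := by
  rw [polar_L_skew, L_L, polar_smul_right, smul_eq_mul, neg_mul]
theorem L_one (x : V K) : L x (H8.oneZ K) = emb x := H8.mul_oneZ _
theorem emb_inj {x y : V K} (h : emb x = emb y) : x = y := by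
  have k := congrFun h
  ext (_ | i | i)
  · exact k 0
  · fin_cases i; exacts [k 1, k 2, k 3]
  · fin_cases i; exacts [k 4, k 5, k 6]

/-- `b` lies over `g` in the spin group -/
def Lift (g : Au K (V K)) (b : Au K (S K)) : Prop := (∀ x s, b (L x s) = L (g x) (b s)) ∧ ∀ s, Nm K (b s) = Nm K s

theorem lift_one : Lift (1 : Au K (V K)) 1 := ⟨fun _ _ => rfl, fun _ => rfl⟩
theorem Lift.mul {g g' : Au K (V K)} {b b' : Au K (S K)} (h : Lift g b) (h' : Lift g' b') : Lift (g * g') (b * b') :=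
  ⟨fun x s => (congrArg b (h'.1 x s)).trans (h.1 _ _), fun s => (h.2 _).trans (h'.2 s)⟩
theorem Lift.inv {g : Au K (V K)} {b : Au K (S K)} (h : Lift g b) : Lift g⁻¹ b⁻¹ :=
  ⟨fun x s => b.injective (by
    rw [h.1]; exact (b.apply_symm_apply _).trans (by
      rw [show g (g⁻¹ x) = x from g.apply_symm_apply x, show b (b⁻¹ s) = s from b.apply_symm_apply s])),
    fun s => (h.2 _).symm.trans (congrArg _ (b.apply_symm_apply s))⟩
theorem Lift.pow {g : Au K (V K)} {b : Au K (S K)} (h : Lift g b) (n : ℕ) : Lift (g ^ n) (b ^ n) := by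
  induction n with
  | zero => simpa using lift_one
  | succ n ih => rw [pow_succ, pow_succ]; exact ih.mul h
theorem Lift.neg {g : Au K (V K)} {b : Au K (S K)} (h : Lift g b) : Lift g (LinearEquiv.neg K * b) :=
  ⟨fun x s => by change -b (L x s) = L (g x) (-b s); rw [h.1, map_neg], fun s => by
    change Nm K (-b s) = _; rw [QuadraticMap.map_neg, h.2]⟩
theorem Lift.orth {g : Au K (V K)} {b : Au K (S K)} (h : Lift g b) : b ∈ orth (Nm K) := mem_orth.2 h.2
theorem Lift.eq {g g' : Au K (V K)} {b : Au K (S K)} (h : Lift g b) (h' : Lift g' b) : g = g' :=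
  LinearEquiv.ext fun x => emb_inj (by
    have a := h.1 x (b.symm (H8.oneZ K))
    rwa [h'.1, b.apply_symm_apply, L_one, L_one, eq_comm] at a)
end

/-- a faithful representation in `SO₇(K)` -/
structure Rp (K : Type u) [Field K] (G : Type v) [Group G] where
  ρ : G →* Au K (V K)
  two : (2 : K) ≠ 0
  iso : ∀ g, ρ g ∈ orth (Q K)
  det : ∀ g, LinearMap.det (ρ g : V K →ₗ[K] V K) = 1
  inj : Function.Injective ρ

namespace Rp
variable {K : Type u} [Field K] {G : Type v} [Group G] (R : Rp K G)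

def comp {G' : Type*} [Group G'] (f : G' →* G) (hf : Function.Injective f) : Rp K G' :=
  ⟨R.ρ.comp f, R.two, fun _ => R.iso _, fun _ => R.det _, R.inj.comp hf⟩
def cj (h : Au K (V K)) (hh : h ∈ orth (Q K)) : Rp K G :=
  ⟨(MulAut.conj h⁻¹).toMonoidHom.comp R.ρ, R.two, fun g => mul_mem (mul_mem (inv_mem hh) (R.iso g)) (inv_mem (inv_mem hh)),
    fun g => by
      have := LinearMap.det_conj (R.ρ g : V K →ₗ[K] V K) h⁻¹
      rw [R.det] at this
      exact this, (MulAut.conj h⁻¹).injective.comp R.inj⟩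
/-- rank of `ρ g - 1` -/
noncomputable def r (g : G) : ℕ := rk (R.ρ g)
theorem r_conj (h g : G) : R.r (h * g * h⁻¹) = R.r g := by rw [r, map_mul, map_mul, map_inv, rk_conj, r]
theorem r_isConj {g h : G} (c : IsConj g h) : R.r g = R.r h := by
  obtain ⟨c, rfl⟩ := isConj_iff.1 c; rw [r_conj]
theorem r_inv (g : G) : R.r g⁻¹ = R.r g := by rw [r, map_inv, rk_inv, r]
theorem Q_ρ (g : G) (x : V K) : Q K (R.ρ g x) = Q K x := mem_orth.1 (R.iso g) x
theorem polar_ρ (g : G) (x y : V K) : polar (Q K) (R.ρ g x) (R.ρ g y) = polar (Q K) x y := orth_polar ⟨_, R.iso g⟩ x y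
theorem ρ_mul (g h : G) (x : V K) : R.ρ (g * h) x = R.ρ g (R.ρ h x) := by rw [map_mul]; rfl
def Irr : Prop := ∀ W : Submodule K (V K), (∀ g, ∀ x ∈ W, R.ρ g x ∈ W) → W = ⊥ ∨ W = ⊤
/-- no involution is minus a reflection -/
def NoC : Prop := ∀ t : G, t * t = 1 → R.r t ≠ 6
/-- stabiliser of a spinor -/
def Fx (s : S K) : Subgroup G where
  carrier := {g | ∃ b, Lift (R.ρ g) b ∧ b s = s}
  one_mem' := ⟨1, by rw [map_one]; exact lift_one, rfl⟩
  mul_mem' := by
    rintro g h ⟨b, h1, h2⟩ ⟨c, h3, h4⟩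
    exact ⟨b * c, by rw [map_mul]; exact h1.mul h3, (congrArg b h4).trans h2⟩
  inv_mem' := by
    rintro g ⟨b, h1, h2⟩
    exact ⟨b⁻¹, by rw [map_inv]; exact h1.inv, b.symm_apply_eq.2 h2.symm⟩
/-- the group fixes a spinor -/
def Red : Prop := ∃ s, s ≠ 0 ∧ ∀ g, g ∈ R.Fx s
/-- stabiliser of a vector -/
def St (x : V K) : Subgroup G := (MulAction.stabilizer (Au K (V K)) x).comap R.ρ
theorem mem_St {x : V K} {g : G} : g ∈ R.St x ↔ R.ρ g x = x := Iff.rfl
theorem Irr.fixed {R : Rp K G} (h : R.Irr) {x : V K} (hx : ∀ g, R.ρ g x = x) : x = 0 := by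
  rcases h (K ∙ x) (fun g y hy => by
    obtain ⟨c, rfl⟩ := Submodule.mem_span_singleton.1 hy
    rwa [map_smul, hx]) with e | e
  · exact Submodule.span_singleton_eq_bot.1 e
  · have := finrank_span_le_card (R := K) {x}
    rw [e, finrank_top, finrank_V] at this
    simp at this
/-- the elements centralising `z` and its fixed space -/
def Tp (z : G) : Subgroup G := centralizer {z} ⊓ ⨅ x ∈ fix (R.ρ z), R.St x
theorem mem_Tp {z g : G} : g ∈ R.Tp z ↔ z * g = g * z ∧ ∀ x, R.ρ z x = x → R.ρ g x = x := by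
  simp [Tp, mem_centralizer_iff, mem_iInf, mem_fix, mem_St]
/-- a homomorphic lift to the spin group -/
structure Sg where
  σ : G →* Au K (S K)
  lift : ∀ g, Lift (R.ρ g) (σ g)
variable {R} in
/-- fixed spinors -/
def Sg.U (T : R.Sg) (z : G) : Submodule K (S K) := fix (T.σ z)
variable {R} in
theorem Sg.red (T : R.Sg) {s : S K} (s0 : s ≠ 0) (h : ∀ g, T.σ g s = s) : R.Red := ⟨s, s0, fun g => ⟨_, T.lift g, h g⟩⟩
/-- weights of an elementary abelian 2-subgroup -/
structure Wt (E : Subgroup G) (b : Basis (Fin 7) K (V K)) (w : Fin 7 → G → ℤˣ) : Prop where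
  ns : ∀ i, Q K (b i) ≠ 0
  orth : ∀ i j, i ≠ j → polar (Q K) (b i) (b j) = 0
  act : ∀ e ∈ E, ∀ i, R.ρ e (b i) = (((w i e : ℤˣ) : ℤ) : K) • b i
  mul : ∀ e ∈ E, ∀ e' ∈ E, ∀ i, w i (e * e') = w i e * w i e'
  rk : ∀ e ∈ E, R.r e = (Finset.univ.filter fun i => w i e = -1).card
  prod : ∀ e ∈ E, ∏ i, w i e = 1
/-- `R'` is obtained from `R` by extension of scalars -/
def Bc {K' : Type u} [Field K'] [Algebra K K'] (R' : Rp K' G) : Prop :=
  ∀ g x, R'.ρ g (fun i => algebraMap K K' (x i)) = fun i => algebraMap K K' (R.ρ g x i)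
end Rp

section
variable {G : Type v} [Group G] {K : Type u} [Field K] {F : Type} [Field F]

/-- a quaternion group with centre `z` -/
structure Qu (z i j : G) : Prop where
  ii : i * i = z
  jj : j * j = z
  ij : i * j = z * (j * i)
  zz : z * z = 1
  z1 : z ≠ 1
/-- `y` permutes the involutions of a four-group containing `t` -/
structure A4 (t y : G) : Prop where
  y3 : y ^ 3 = 1
  tt : t * t = 1
  t1 : t ≠ 1
  rel : t * (y * t * y⁻¹) = y⁻¹ * t * y
def up (t : F) : SL(2, F) := ⟨!![1, t; 0, 1], by simp [Matrix.det_fin_two]⟩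
def dg (a : Fˣ) : SL(2, F) := ⟨!![(a : F), 0; 0, ((a⁻¹ : Fˣ) : F)], by simp [Matrix.det_fin_two]⟩
variable (F) in
def wy : SL(2, F) := ⟨!![0, 1; -1, 0], by simp [Matrix.det_fin_two]⟩
/-- three conjugates -/
def Nq (A : Subgroup G) (w w' : G) : Subgroup G :=
  A ⊔ A.map (MulAut.conj w).toMonoidHom ⊔ A.map (MulAut.conj w').toMonoidHom
/-- the torus of `SO₇` -/
def tor (t : Fin 3 → K) (x : V K) : V K
  | .inl _ => x (.inl ())
  | .inr (.inl i) => t i * x (.inr (.inl i))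
  | .inr (.inr i) => (t i)⁻¹ * x (.inr (.inr i))
/-- the torus of the spin group (`δ ^ 2 = t 0 * t 1 * t 2`) -/
def torS (t : Fin 3 → K) (δ : K) (s : S K) : S K :=
  ![δ * s 0, t 0 / δ * s 1, t 1 / δ * s 2, t 2 / δ * s 3, δ / t 0 * s 4, δ / t 1 * s 5, δ / t 2 * s 6, δ⁻¹ * s 7]
/-- monomial isometries -/
def Mon (g : Au K (V K)) : Prop :=
  ∀ j : Fin 3 ⊕ Fin 3, ∃ (k : Fin 3 ⊕ Fin 3) (c : K), g (Pi.single (.inr j) 1) = c • (Pi.single (.inr k) 1 : V K)
/-- elements whose lift fixes a spinor -/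
def O6c (R : Rp K G) (p : ℕ) (z : G) : Prop := (∃ n, z ^ p ^ n = 1) ∨ z ^ 7 = 1 ∧ IsConj z (z ^ 2) ∨
  z ^ 13 = 1 ∧ IsConj z (z ^ 3) ∨ z ^ 7 = 1 ∧ ∃ x, LinearIndependent K fun i : Fin 7 => R.ρ (z ^ i.1) x
end

/-- irreducible without `-reflection` ⇒ fixes a spinor -/
def Fam (G : Type v) [Group G] : Prop := ∀ (K : Type u) [Field K] [IsAlgClosed K] (p : ℕ) [Fact p.Prime] [CharP K p]
  (R : Rp K G), R.Irr → R.NoC → R.Red
/-- no irreducible representation -/
def Kill (G : Type v) [Group G] : Prop := ∀ (K : Type u) [Field K] [IsAlgClosed K] (p : ℕ) [Fact p.Prime] [CharP K p]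
  (R : Rp K G), ¬ R.Irr
/-- no representation -/
def Kill0 (G : Type v) [Group G] : Prop := ∀ (K : Type u) [Field K] [IsAlgClosed K] (p : ℕ) [Fact p.Prime] [CharP K p]
  (_ : Rp K G), False

theorem Kill0.inj {G : Type v} [Group G] {G' : Type*} [Group G'] (h : Kill0.{u} G') (f : G' →* G)
    (hf : Function.Injective f) : Kill0.{u} G := fun K _ _ p _ _ R => h K p (R.comp f hf)

/-- the hypotheses of S5815 -/
structure Cx (F : Type u) [Field F] [Fintype F] (H P : Subgroup (GL ι F)) : Prop where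
  odd : Odd (Fintype.card F)
  mx : Geo.IsMaximalIn (Geo.omegaGL (quadFormOdd 3 F)) H
  core : Geo.IsResidualCore H P

namespace Cx
variable {F : Type u} [Field F] [Fintype F] {H P : Subgroup (GL ι F)} (h : Cx F H P)
include h
theorem two : (2 : F) ≠ 0 := fun e => by
  have : CharP F 2 := (CharP.charP_iff_prime_eq_zero Nat.prime_two).2 e
  exact Nat.not_odd_iff.2 (FiniteField.even_card_iff_char_two.1 (ringChar.eq F 2)) h.odd
theorem om {g : GL ι F} (hg : g ∈ H) : glEquiv ι F g ∈ OmegaV (Q F) := by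
  have := h.mx.1.le hg
  rwa [← H11.coe_qOdd, omegaGL_eq] at this
/-- the natural representation of the socle -/
noncomputable def rp : Rp F P :=
  ⟨(glEquiv ι F).toMonoidHom.comp P.subtype, h.two, fun g => OmegaV_le (h.om (h.core.le g.2)),
    fun g => mem_SLV.1 (OmegaV_le_SLV (h.om (h.core.le g.2))), (glEquiv ι F).injective.comp P.subtype_injective⟩
theorem rp_apply (g : P) (x : V F) : h.rp.ρ g x = Matrix.mulVec g.1.1 x := rfl
end Cx

end H26.O7
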