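/-
S5815: the statements of the pieces. Proofs: `notes/O7.md`.
-/
import Cfsg.Agent.H26.O7I
import Cfsg.Prelude.Def_CaseTheorems
import Cfsg.Prelude.Def_LieTwisted
import Cfsg.Prelude.Def_Sz
import Cfsg.Prelude.Def_Spor_J1
import Cfsg.Prelude.Def_Spor_J2
import Cfsg.Prelude.Def_Spor_Mathieu

set_option autoImplicit false

open Module QuadraticMap H12 Cfsg MatrixGroups Subgroup
namespace H26.O7
universe u v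

/-! ### A. linear algebra -/

def LF : Prop := ∀ (K : Type u) [Field K], (2 : K) ≠ 0 →
  (∀ f : S K →ₗ[K] S K, (∀ x s, f (L x s) = L x (f s)) → ∃ c : K, ∀ s, f s = c • s) ∧
  (∀ g (b b' : Au K (S K)), Lift g b → Lift g b' → b' = b ∨ b' = LinearEquiv.neg K * b) ∧
  (∀ g ∈ OmegaV (Q K), ∃ b, Lift g b) ∧
  (∀ g ∈ orth (Q K), g * g = 1 → rk g = 4 → LinearMap.det (g : V K →ₗ[K] V K) = 1 → ∀ b, Lift g b → b * b = 1 ∧ rk b = 4) ∧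
  (IsAlgClosed K → ∀ g ∈ orth (Q K), LinearMap.det (g : V K →ₗ[K] V K) = 1 →
    (∃ b, Lift g b) ∧ ∀ n, Odd n → g ^ n = 1 → ∃! b, Lift g b ∧ b ^ n = 1)
def EV : Prop := ∀ (K : Type u) [Field K] (M : Type u) [AddCommGroup M] [Module K M] [FiniteDimensional K M]
  (q : QuadraticForm K M), (2 : K) ≠ 0 → QNondeg q → ∀ g ∈ orth q, ∀ n, Odd n → g ^ n = 1 → Even (rk g)
def QG : Prop := ∀ (K : Type u) [Field K] [IsAlgClosed K] (M : Type u) [AddCommGroup M] [Module K M] [FiniteDimensional K M]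
  (q : QuadraticForm K M), (2 : K) ≠ 0 → ∀ W : Submodule K M, (CForm.ofQuad q).NondegOn W → ∀ i ∈ orth q, ∀ j ∈ orth q,
    (∀ x ∈ W, i x ∈ W ∧ j x ∈ W ∧ i (i x) = -x ∧ j (j x) = -x ∧ i (j x) = -j (i x)) → 4 ∣ finrank K W
def WT : Prop := ∀ (K : Type u) [Field K] (G : Type v) [Group G] (R : Rp K G) (E : Subgroup G),
  (∀ e ∈ E, e * e = 1) → ∃ b w, R.Wt E b w
def E2 : Prop := ∀ (K : Type u) [Field K] (G : Type v) [Group G] [Finite G] (R : Rp K G),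
  (∀ t : G, t * t = 1 → t ≠ 1 → R.r t = 2 ∨ R.r t = 4 ∨ R.r t = 6) ∧
  (∀ s t : G, s * s = 1 → t * t = 1 → s * t = t * s → R.r s = R.r t → R.r (s * t) = R.r t →
    ∃ x, Q K x ≠ 0 ∧ R.ρ s x = x ∧ R.ρ t x = x ∧
      (R.r t = 4 → ∀ y, R.ρ s y = y → R.ρ t y = y → ∃ c : K, y = c • x)) ∧
  ∀ E : Subgroup G, (∀ e ∈ E, e * e = 1) → Nat.card E ≤ 64 ∧
    (∃ d, 7 * Nat.card E = Nat.card E * d + 2 * ∑ᶠ e : E, R.r e) ∧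
    ((∀ s ∈ E, ∀ t ∈ E, s ≠ 1 → t ≠ 1 → IsConj s t) → Nat.card E ≠ 16 ∧ (Nat.card E = 8 →
      (∀ t ∈ E, t ≠ 1 → R.r t = 4) ∧ (∀ g ∈ centralizer (E : Set G), g * g = 1) ∧
      ∀ b w, R.Wt E b w → (∀ i j, (∀ e ∈ E, w i e = w j e) → i = j) ∧ ∀ i, ∃ e ∈ E, w i e = -1))
def QQ : Prop := ∀ (K : Type u) [Field K] [IsAlgClosed K] (G : Type v) [Group G] (R : Rp K G) (z i j : G),
  (Qu z i j → R.r z = 4) ∧
  (∀ z' i' j', Qu z i j → Qu z' i' j' → Commute i i' → Commute i j' → Commute j i' → Commute j j' → z = z') ∧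
  (∀ a b, Qu z i j → a * a = 1 → b * b = 1 → a * b = z * (b * a) → Commute i a → Commute i b → Commute j a →
    ¬ Commute j b) ∧
  ∀ z', z * z = 1 → z ≠ 1 → IsConj z z' → IsConj z (z * z') → i * i = z → j * j = z → Commute i z' → Commute j z' →
    i * j ≠ z' * (j * i)
def AK : Prop := ∀ (K : Type u) [Field K] [IsAlgClosed K] (G : Type v) [Group G] [Finite G] (R : Rp K G),
  (∀ t y, A4 t y → R.r t = 4 → R.r y = 4 ∧ ∀ c, c ^ 3 = 1 → Commute c t → Commute c y → R.r c ≠ 4) ∧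
  (∀ (A : Subgroup G) x, x ≠ 0 → (∀ a ∈ A, ∃ c : K, R.ρ a x = c • x) → A.index ≤ 6 → ¬ R.Irr) ∧
  ∀ t y : G, A4 t y → (Subgroup.closure {t, y}).index ≤ 6 → ¬ R.Irr
def KD : Prop := ∀ (K : Type u) [Field K] [IsAlgClosed K] (G : Type v) [Group G] (R : Rp K G) (z i j : G),
  (Qu z i j → i ∉ R.Tp z → j ∉ R.Tp z → i * j ∉ R.Tp z → ∀ g, Commute g i → Commute g j → g * g ∈ R.Tp z) ∧
  ∀ n, Odd n → j ^ n = 1 → j ≠ 1 → j ∈ R.Tp z → j ∈ R.Tp i → R.r z = 4 → R.r i = 4 →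
    ∃ x, x ≠ 0 ∧ R.ρ z x = x ∧ R.ρ i x = x
def KS : Prop := ∀ (K : Type u) [Field K] [IsAlgClosed K] (G : Type v) [Group G] (R : Rp K G)
  (F₁ F₂ : Type) [Field F₁] [Fintype F₁] [Field F₂] [Fintype F₂] (φ₁ : SL(2, F₁) →* G) (φ₂ : SL(2, F₂) →* G) (z : G),
  Odd (Fintype.card F₁) → Odd (Fintype.card F₂) → φ₁ (-1) = z → φ₂ (-1) = z → z ≠ 1 → (∀ a b, Commute (φ₁ a) (φ₂ b)) →
  R.r z = 4 ∧ (φ₁.range ≤ R.Tp z ∨ (∀ a, a * a = -1 → φ₂ a ∈ R.Tp z) ∧ (5 ≤ Fintype.card F₂ → φ₂.range ≤ R.Tp z))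
def K3 : Prop := ∀ (K : Type u) [Field K] [IsAlgClosed K] (G : Type v) [Group G] (R : Rp K G) (z i j i' j' y : G),
  Qu z i j → Qu z i' j' → Commute i i' → Commute i j' → Commute j i' → Commute j j' → y ^ 3 = 1 → Commute y i' →
  Commute y j' → y * i * y⁻¹ = j → y * j * y⁻¹ = i * j → i ∈ R.Tp z → centralizer {y} ⊔ zpowers i = ⊤ → R.Irr → y ∈ R.Tp z
def TR : Prop := ∀ (K : Type u) [Field K] [IsAlgClosed K],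
  (∀ (G : Type v) [Group G] (R : Rp K G) (A : Subgroup G) (n : ℕ), Odd n → (n : K) ≠ 0 → (∀ a ∈ A, a ^ n = 1) →
    (∀ a ∈ A, ∀ b ∈ A, a * b = b * a) → ∃ h ∈ orth (Q K), LinearMap.det (h : V K →ₗ[K] V K) = 1 ∧ ∃ t : G → Fin 3 → K,
      ∀ a ∈ A, (∀ i, t a i ^ n = 1) ∧ (∀ b ∈ A, t (a * b) = t a * t b) ∧ ∀ x, R.ρ a (h x) = h (tor (t a) x)) ∧
  ∀ (g : Au K (V K)) (t : Fin 3 → K) (δ : K), (∀ i, t i ≠ 0) → δ ^ 2 = t 0 * t 1 * t 2 → (∀ x, g x = tor t x) →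
    ∃ b, Lift g b ∧ ∀ s, b s = torS t δ s
def W7 : Prop := ∀ (K : Type u) [Field K] [IsAlgClosed K] (G : Type v) [Group G] [Finite G] (_ : Rp K G),
  (∀ (A : Subgroup G) (n : ℕ), Odd n → (n : K) ≠ 0 → (∀ a ∈ A, a ^ n = 1) → (∀ a ∈ A, ∀ b ∈ A, a * b = b * a) →
    Nat.card A ≤ n ^ 3 ∧ (A ≠ ⊥ → ∀ (h : Fin 7 → G) (ε : Fin 7 → ℤ), (∀ j, ε j = 1 ∨ ε j = -1) →
      (∀ j, ∀ a ∈ A, h j * a * (h j)⁻¹ ∈ A) →
      ∃ j l, j ≠ l ∧ ∃ b ∈ A, b ≠ 1 ∧ (h j * b * (h j)⁻¹) ^ ε j = (h l * b * (h l)⁻¹) ^ ε l)) ∧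
  ∀ (x y c : G) (l : ℕ), l.Prime → 3 < l → (l : K) ≠ 0 → c ^ l = 1 → c ≠ 1 → Commute c x → Commute c y →
    x * y ≠ c * (y * x)
def XS3 : Prop := ∀ (K : Type u) [Field K] [IsAlgClosed K] (p : ℕ) [Fact p.Prime] [CharP K p] (G : Type v) [Group G]
  (R : Rp K G) (z i j c : G) (x y : Fin 4 → G), Qu z i j → Commute c i → Commute c j → c ∈ R.Tp z → c ≠ 1 → c ^ p = 1 →
  (∀ k, x k ^ p = 1 ∧ y k ^ p = 1 ∧ z * x k * z⁻¹ = (x k)⁻¹ ∧ z * y k * z⁻¹ = (y k)⁻¹ ∧ Commute c (x k) ∧ Commute c (y k) ∧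
    x k * y k = c * (y k * x k)) →
  (∀ k l, k ≠ l → Commute (x k) (x l) ∧ Commute (y k) (y l) ∧ Commute (x k) (y l)) → False

/-! ### B. the spin module -/

def U3 : Prop := ∀ (K : Type u) [Field K] [IsAlgClosed K] (p : ℕ) [Fact p.Prime] [CharP K p] (G : Type v) [Group G]
  (R : Rp K G), (∀ y, y ^ 3 = 1 → R.r y = 4 ∨ (3 : K) = 0 → ∃ b, Lift (R.ρ y) b ∧ b ^ 3 = 1 ∧ rk b ≤ 4) ∧
    ∀ z, O6c R p z → ∃ s, s ≠ 0 ∧ z ∈ R.Fx s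
def HZ : Prop := ∀ (K : Type u) [Field K] [IsAlgClosed K] (p : ℕ) [Fact p.Prime] [CharP K p] (G : Type v) [Group G]
  [Finite G] (R : Rp K G) (x y : G), x * x = 1 → y ^ 3 = 1 → O6c R p (x * y) →
  (R.r x = 4 → R.r y = 4 ∨ (3 : K) = 0 → ∃ s, s ≠ 0 ∧ x ∈ R.Fx s ∧ y ∈ R.Fx s) ∧
  (R.Irr → R.NoC → commutator G = ⊤ → closure {x, y} = ⊤ →
    R.r y = 4 ∨ (3 : K) = 0 ∨ (∃ t y', IsConj x t ∧ IsConj y y' ∧ A4 t y') → R.Red)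
def SPL : Prop := ∀ (K : Type u) [Field K] [IsAlgClosed K] (G : Type v) [Group G] [Finite G] (R : Rp K G) (m : ℕ),
  commutator G = ⊤ → Odd m → HasCyclicSchurMultiplier G m → Nonempty R.Sg
def WD : Prop := ∀ (K : Type u) [Field K] [IsAlgClosed K] (G : Type v) [Group G] [Finite G] (R : Rp K G) (T : R.Sg),
  (∀ z, z * z = 1 → R.r z = 4 → finrank K (T.U z) = 4 ∧ (CForm.ofQuad (Nm K)).NondegOn (T.U z)) ∧
  (∀ z z', z * z = 1 → z' * z' = 1 → z * z' = z' * z → R.r z = 4 → R.r z' = 4 → R.r (z * z') = 4 →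
    finrank K ↥(T.U z ⊓ T.U z') = 2 ∧ (CForm.ofQuad (Nm K)).NondegOn (T.U z ⊓ T.U z')) ∧
  (∀ t w, A4 t w → R.r t = 4 → ∀ s ∈ T.U t ⊓ T.U (w * t * w⁻¹), T.σ w s = s) ∧
  ∀ E : Subgroup G, Nat.card E = 8 → (∀ e ∈ E, e * e = 1) → (∀ s ∈ E, ∀ t ∈ E, s ≠ 1 → t ≠ 1 → IsConj s t) →
    E ⊔ closure {w | ∃ t ∈ E, w * t * w⁻¹ ∈ E ∧ A4 t w} = ⊤ → R.Red
def KT : Prop := ∀ (K : Type u) [Field K] [IsAlgClosed K] (G : Type v) [Group G] [Finite G] (R : Rp K G) (T : R.Sg)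
  (F : Type) [Field F] [Fintype F] (φ : SL(2, F) →* G) (z : G), Odd (Fintype.card F) → 5 ≤ Fintype.card F → φ (-1) = z →
  z ≠ 1 → φ.range ≤ R.Tp z → ∀ a, ∀ s ∈ T.U z, T.σ (φ a) s = s
def R1 : Prop := ∀ (K : Type u) [Field K] [IsAlgClosed K] (F : Type) [Field F] [Fintype F] (φ : SL(2, F) →* Au K (S K))
  (U W : Submodule K (S K)), (2 : K) ≠ 0 → (Fintype.card F : K) = 0 → 5 ≤ Fintype.card F → (∀ a, φ a ∈ orth (Nm K)) →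
  finrank K U = 4 → (CForm.ofQuad (Nm K)).NondegOn U → W ≤ U → finrank K W = 2 → (CForm.ofQuad (Nm K)).NondegOn W →
  (∀ a, ∀ s ∈ U, φ a s ∈ U) → (∀ s ∈ U, φ (-1) s = s) → (∀ a, ∀ s ∈ W, φ (dg a) s = s) →
  ∃ s ∈ W, s ≠ 0 ∧ ∀ a, φ a s = s
def RS : Prop := ∀ (K : Type u) [Field K] [IsAlgClosed K] (G : Type v) [Group G] [Finite G] (R : Rp K G) (_ : R.Sg)
  (F₁ F₂ : Type) [Field F₁] [Fintype F₁] [Field F₂] [Fintype F₂] (φ₁ : SL(2, F₁) →* G) (φ₂ : SL(2, F₂) →* G) (z w w' : G),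
  Odd (Fintype.card F₁) → 5 ≤ Fintype.card F₁ → φ₁ (-1) = z → φ₂ (-1) = z → z ≠ 1 → z * (w * z * w⁻¹) = w' * z * w'⁻¹ →
  φ₁.range ≤ R.Tp z → Nq φ₁.range w w' = ⊤ ∨ (Fintype.card F₂ : K) = 0 ∧ 5 ≤ Fintype.card F₂ ∧
    (∀ a, φ₂ (dg a) ∈ Nq φ₁.range w w') ∧ Nq φ₁.range w w' ⊔ φ₂.range = ⊤ → R.Red
def DT : Prop := ∀ (K : Type u) [Field K] [IsAlgClosed K] (G : Type v) [Group G] [Finite G] (R : Rp K G) (_ : R.Sg)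
  (z z' w n d k : G) (D : Subgroup G), A4 z w → z' = w * z * w⁻¹ → n * n = 1 → Commute n z → z' * n * (z' * n) = z →
  Commute d z → d * z' * d⁻¹ = n ∨ d * z' * d⁻¹ = z * n → Commute k z →
  k * (k * (z' * n) * k⁻¹) * k⁻¹ = z' * n * (k * (z' * n) * k⁻¹) → (∀ t ∈ D, Commute t z ∧ Commute t z') →
  (∀ t ∈ D, ∃ t' ∈ D, t = t' * w * t'⁻¹ * w⁻¹) → D ⊔ closure {w, n} ⊔ D.map (MulAut.conj d).toMonoidHom = ⊤ → R.Red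
/-- the highest weight vector of `L(6)` -/
def Hw {K : Type u} [Field K] {G : Type v} [Group G] (R : Rp K G) {F : Type} [Field F] (φ : SL(2, F) →* G) (x : V K) : Prop :=
  x ≠ 0 ∧ Q K x = 0 ∧ polar (Q K) x (R.ρ (φ (wy F)) x) ≠ 0 ∧ (∀ t, R.ρ (φ (up t)) x = x) ∧
    (∀ y, R.ρ (φ (up 1)) y = y → ∃ c : K, y = c • x) ∧ ∀ (a : Fˣ) (m : ℕ), (a : F) = m → R.ρ (φ (dg a)) x = (m : K) ^ 6 • x
def L2G : Prop := ∀ (K : Type u) [Field K] [IsAlgClosed K] (p : ℕ) [Fact p.Prime] [CharP K p] (G : Type v) [Group G]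
  (R : Rp K G) (F : Type) [Field F] [Fintype F] [CharP F p] (φ : SL(2, F) →* G), 9 ≤ Fintype.card F →
  Function.Surjective φ → φ (-1) = 1 → R.Irr → 7 ≤ p ∧ ∃ x, Hw R φ x
def L2S : Prop := ∀ (K : Type u) [Field K] [IsAlgClosed K] (p : ℕ) [Fact p.Prime] [CharP K p] (G : Type v) [Group G]
  [Finite G] (R : Rp K G) (F : Type) [Field F] [Fintype F] [CharP F p] (φ : SL(2, F) →* G) (x : V K),
  Function.Surjective φ → φ (-1) = 1 → R.Irr → R.NoC → 7 ≤ p → Hw R φ x → R.Red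

/-! ### C. the families -/

def L2A : Prop := ∀ (F : Type) [Field F] [Fintype F] (K : Type u) [Field K] [IsAlgClosed K] (R : Rp K PSL(2, F)),
  (Odd (Fintype.card F) → (Fintype.card F : K) ≠ 0 → 11 ≤ Fintype.card F → Fintype.card F = 13) ∧
  (Even (Fintype.card F) → Fintype.card F < 16) ∧ (Fintype.card F = 4 ∨ Fintype.card F = 5 → ¬ R.Irr) ∧
  (Fintype.card F = 9 → (3 : K) ≠ 0 → ¬ R.Irr)
def L2P : Prop := ∀ (F : Type) [Field F] [Fintype F] (K : Type u) [Field K] [IsAlgClosed K] (p : ℕ) [Fact p.Prime] [CharP K p]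
  (R : Rp K PSL(2, F)), 7 ≤ Fintype.card F → Fintype.card F = p ∨ Fintype.card F = 7 ∨ Fintype.card F = 13 →
  R.Irr → R.NoC → R.Red
def L28 : Prop := ∀ (F : Type) [Field F] [Fintype F] (K : Type u) [Field K] [IsAlgClosed K] (p : ℕ) [Fact p.Prime] [CharP K p]
  (R : Rp K PSL(2, F)), Fintype.card F = 8 → R.Irr → R.NoC → R.Red ∨ (3 : K) ≠ 0 ∧ ∀ y, orderOf y = 3 → R.r y = 6
def L3A : Prop := ∀ (F : Type) [Field F] [Fintype F], Odd (Fintype.card F) → 5 ≤ Fintype.card F →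
  ¬ 3 ∣ Fintype.card F - 1 → Fam.{u} PSL(3, F)
def U3A : Prop := ∀ (F : Type) [Field F] [Fintype F] (r : ℕ), Fintype.card F = r ^ 2 → Odd r → ¬ 3 ∣ r + 1 →
  Fam.{u} (PSU 3 F r)
def L3B : Prop := ∀ (F : Type) [Field F] [Fintype F], Odd (Fintype.card F) →
  (3 ∣ Fintype.card F - 1 → Kill0.{u} PSL(3, F)) ∧ (Fintype.card F = 3 → Fam.{u} PSL(3, F))
def U3B : Prop := ∀ (F : Type) [Field F] [Fintype F] (r : ℕ), Fintype.card F = r ^ 2 →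
  Odd r ∧ 3 ∣ r + 1 ∨ r = 4 ∨ r = 8 → Kill0.{u} (PSU 3 F r)
def SZ : Prop := (∀ (F : Type) [Field F] [Fintype F], Fintype.card F = 8 → Kill0.{u} (Lie.Sz F 4)) ∧ Kill0.{u} Spor.J2
def MK : Prop := (∀ (G : Type v) [Group G] [Finite G], IsM11 G → Kill0.{u} G) ∧ Kill0.{u} Spor.M12
def J1 : Prop := Fam.{u} Spor.J1
def AN : Prop := ∀ (K : Type u) [Field K] [IsAlgClosed K],
  (∀ R : Rp K (alternatingGroup (Fin 7)), R.Irr → ¬ R.NoC) ∧ (Rp K (alternatingGroup (Fin 9)) → (3 : K) = 0) ∧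
  (Rp K (alternatingGroup (Fin 10)) → False) ∧ (Rp K (alternatingGroup (Fin 11)) → False)
def REE : Prop := ∀ (F : Type) [Field F] [Fintype F] (m : ℕ), 1 ≤ m → Fintype.card F = 3 ^ (2 * m + 1) →
  ∃ E : Subgroup (Lie.twistedG2 F (3 ^ m)), Nat.card E = 8 ∧ (∀ e ∈ E, e * e = 1) ∧
    (∀ s ∈ E, ∀ t ∈ E, s ≠ 1 → t ≠ 1 → IsConj s t) ∧ E ⊔ closure {w | ∃ t ∈ E, w * t * w⁻¹ ∈ E ∧ A4 t w} = ⊤
/-- two commuting `SL₂` with the same centre, and a four-group -/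
structure Cf {G : Type v} [Group G] {F₁ F₂ : Type} [Field F₁] [Field F₂] (φ₁ : SL(2, F₁) →* G) (φ₂ : SL(2, F₂) →* G)
    (z w w' : G) : Prop where
  z₁ : φ₁ (-1) = z
  z₂ : φ₂ (-1) = z
  z1 : z ≠ 1
  comm : ∀ a b, Commute (φ₁ a) (φ₂ b)
  rel : z * (w * z * w⁻¹) = w' * z * w'⁻¹
def G2C : Prop := ∀ (F : Type) [Field F] [Fintype F], Odd (Fintype.card F) → 5 ≤ Fintype.card F →
  ∃ (φ₁ φ₂ : SL(2, F) →* Lie.chevG2.group F) (z w w' x y : Lie.chevG2.group F), Cf φ₁ φ₂ z w w' ∧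
    (∀ a, φ₂ (dg a) ∈ Nq φ₁.range w w') ∧ (∀ a, φ₁ (dg a) ∈ Nq φ₂.range w w') ∧ Nq φ₁.range w w' ⊔ φ₂.range = ⊤ ∧
    Nq φ₂.range w w' ⊔ φ₁.range = ⊤ ∧ Commute (φ₁ (up 1)) x ∧ Commute (φ₁ (up 1)) y ∧ x * y = φ₁ (up 1) * (y * x)
def G23 : Prop := ∀ (F : Type) [Field F] [Fintype F], Fintype.card F = 3 → Fam.{u} (Lie.chevG2.group F)
def D4C : Prop := ∀ (F : Type) [Field F] [Fintype F] (r p : ℕ) [CharP F p], Odd r → Fintype.card F = r ^ 3 →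
  ∃ (F₁ : Type) (_ : Field F₁) (_ : Fintype F₁) (_ : CharP F₁ p) (φ₁ : SL(2, F₁) →* Lie.twistedD4 F r)
    (φ₂ : SL(2, F) →* Lie.twistedD4 F r) (z w w' : Lie.twistedD4 F r) (x y : Fin 4 → Lie.twistedD4 F r),
    Fintype.card F₁ = r ∧ Cf φ₁ φ₂ z w w' ∧ Nq φ₂.range w w' = ⊤ ∧
    (∀ k, x k ^ p = 1 ∧ y k ^ p = 1 ∧ z * x k * z⁻¹ = (x k)⁻¹ ∧ z * y k * z⁻¹ = (y k)⁻¹ ∧ Commute (φ₁ (up 1)) (x k) ∧
      Commute (φ₁ (up 1)) (y k) ∧ x k * y k = φ₁ (up 1) * (y k * x k)) ∧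
    ∀ k l, k ≠ l → Commute (x k) (x l) ∧ Commute (y k) (y l) ∧ Commute (x k) (y l)
/-- glue: `G2C D4C REE` and the pieces of A, B -/
def GD : Prop := (∀ (F : Type) [Field F] [Fintype F], Odd (Fintype.card F) → 5 ≤ Fintype.card F →
    Fam.{u} (Lie.chevG2.group F)) ∧
  (∀ (F : Type) [Field F] [Fintype F] (r : ℕ), Odd r → Fintype.card F = r ^ 3 → Fam.{u} (Lie.twistedD4 F r)) ∧
  ∀ (F : Type) [Field F] [Fintype F] (m : ℕ), 1 ≤ m → Fintype.card F = 3 ^ (2 * m + 1) → Fam.{u} (Lie.twistedG2 F (3 ^ m))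
def SP4 : Prop := ∀ (F : Type) [Field F] [Fintype F], Odd (Fintype.card F) → Kill.{u} (PSp 2 F)
def L4 : Prop := ∀ (F : Type) [Field F] [Fintype F], Odd (Fintype.card F) → Kill.{u} PSL(4, F) ∧ Kill0.{u} PSL(5, F)
def U4 : Prop := ∀ (F : Type) [Field F] [Fintype F] (r : ℕ), Fintype.card F = r ^ 2 → Odd r →
  Kill.{u} (PSU 4 F r) ∧ Kill0.{u} (PSU 5 F r)

/-- the simple groups of sectional 2-rank at most 4 -/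
def Ls (G : Type v) [Group G] : Prop :=
  (∃ (F : Type) (_ : Field F) (_ : Fintype F), 4 ≤ Fintype.card F ∧ Nonempty (G ≃* PSL(2, F)) ∨ Odd (Fintype.card F) ∧
    (Nonempty (G ≃* PSL(3, F)) ∨ Nonempty (G ≃* PSL(4, F)) ∨ Nonempty (G ≃* PSL(5, F)) ∨ Nonempty (G ≃* PSp 2 F) ∨
      Nonempty (G ≃* Lie.chevG2.group F)) ∨ Fintype.card F = 8 ∧ Nonempty (G ≃* Lie.Sz F 4) ∨
    ∃ r, Fintype.card F = r ^ 2 ∧ ((Odd r ∨ r = 4 ∨ r = 8) ∧ Nonempty (G ≃* PSU 3 F r) ∨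
      Odd r ∧ (Nonempty (G ≃* PSU 4 F r) ∨ Nonempty (G ≃* PSU 5 F r))) ∨
      Odd r ∧ Fintype.card F = r ^ 3 ∧ Nonempty (G ≃* Lie.twistedD4 F r)) ∨
  Lie.IsoRee G ∨ (∃ n, 7 ≤ n ∧ n ≤ 11 ∧ Nonempty (G ≃* alternatingGroup (Fin n))) ∨ IsM11 G ∨ Spor.IsoM12 G ∨
  Spor.IsoJ1 G ∨ Spor.IsoJ2 G ∨
  ∃ E : Subgroup G, Nat.card E = 16 ∧ (∀ x ∈ E, x * x = 1) ∧ ∀ x ∈ E, ∀ y ∈ E, x ≠ 1 → y ≠ 1 → IsConj x y
def ID : Prop := ∀ (G : Type v) [Group G] [Finite G] [IsSimpleGroup G], ¬ IsMulCommutative G → SectionalPRankLE 2 4 G → Ls G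

/-! ### D. over the finite field -/

def BC : Prop := ∀ (F K : Type u) [Field F] [Field K] [Algebra F K],
  (∀ (G : Type v) [Group G] (R : Rp F G), ∃ R' : Rp K G, R.Bc R' ∧ ∀ g, R'.r g = R.r g) ∧
  ∀ [Fintype F] (H P : Subgroup (GL ι F)) (h : Cx F H P), (∀ R' : Rp K P, h.rp.Bc R' → R'.Irr) ∧
    IsSimpleGroup P ∧ ¬ IsMulCommutative P ∧ Nonempty (P ⧸ (Geo.scalars ι F).subgroupOf P ≃* P)
def MO : Prop := ∀ (F : Type u) [Field F] [Fintype F] (G : Type v) [Group G] [Finite G] (R : Rp F G),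
  Fintype.card F % 4 = 1 → IsPGroup 2 G → ∃ h ∈ orth (Q F), ∀ g, Mon (h⁻¹ * R.ρ g * h)
def SR : Prop := ∀ (K : Type u) [Field K] (G : Type v) [Group G] [Finite G] (R : Rp K G), IsPGroup 2 G → R.NoC →
  (∀ g, Mon (R.ρ g)) → ∀ N : Subgroup G, N.Normal → (∀ g : G, g * g ∈ N) → N.index ≤ 16
/-- glue: `BC MO SR` -/
def R4 : Prop := ∀ (F : Type u) [Field F] [Fintype F] (G : Type v) [Group G] [Finite G] (R : Rp F G), R.NoC →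
  SectionalPRankLE 2 4 G
def G2S : Prop := ∀ (F : Type u) [Field F] [Fintype F], Odd (Fintype.card F) → commutator (H8.autZ F) = ⊤ ∧
  ∀ N : Subgroup (H8.autZ F), N.Normal → ∀ t ∈ N, t * t = 1 → t ≠ 1 → N = ⊤
def KL1 : Prop := ∀ (F : Type u) [Field F] [Fintype F] (G : Type u) [Group G] (R : Rp F G) (R' : Rp (AlgebraicClosure F) G),
  R.Bc R' → commutator G = ⊤ → R'.Irr → R'.Red → ∃ s, Nm F s ≠ 0 ∧ ∀ g, g ∈ R.Fx s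
def KL2 : Prop := ∀ (F : Type u) [Field F] [Fintype F] (H P : Subgroup (GL ι F)) (h : Cx F H P) (s : S F),
  Nm F s ≠ 0 → (∀ g, g ∈ h.rp.Fx s) → Nonempty (P ≃* Lie.G2 F)
def NM : Prop := ∀ (F : Type u) [Field F] [Fintype F] (H P : Subgroup (GL ι F)), Cx F H P → ∀ (R : Finset (V F)) (c : F),
  c ≠ 0 → R.card ≤ 126 → (∀ x ∈ R, Q F x = c) → (∀ g ∈ H, ∀ x ∈ R, glEquiv ι F g x ∈ R) →
  (∀ x ∈ R, ∀ y ∈ R, (refl (Q F) x).1 y ∈ R) → ∀ x ∈ R, ∀ y ∈ R, ∃ g ∈ H, glEquiv ι F g = (refl (Q F) x * refl (Q F) y).1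
def A8F : Prop := ∀ (F : Type u) [Field F] [Fintype F] (H P : Subgroup (GL ι F)), Cx F H P →
  IsEmpty (P ≃* alternatingGroup (Fin 8))
def A9F : Prop := ∀ (F : Type u) [Field F] [Fintype F] (H P : Subgroup (GL ι F)), Cx F H P → (3 : F) = 0 →
  Nonempty (P ≃* alternatingGroup (Fin 9)) → Fintype.card F = 3
def L28F : Prop := ∀ (F : Type u) [Field F] [Fintype F] (H P : Subgroup (GL ι F)) (h : Cx F H P) (F' : Type) [Field F']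
  [Fintype F'], Fintype.card F' = 8 → Nonempty (P ≃* PSL(2, F')) → (3 : F) ≠ 0 → ¬ ∀ y, orderOf y = 3 → h.rp.r y = 6

/-! ### E. groups generated by reflections -/

section
variable {F : Type u} [Field F]
/-- normalised inner product -/
def xx (δ : F) (x y : V F) : F := polar (Q F) x y / δ
def Pent (a : F) : Prop := a ^ 2 - 3 * a + 1 = 0 ∧ (5 : F) ≠ 0
def Od (a : F) : Prop := a = 1 ∨ Pent a
/-- half the Gram determinant -/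
def gram (δ : F) (x y z : V F) : F := 4 + xx δ x y * xx δ x z * xx δ y z - (xx δ x y ^ 2 + xx δ x z ^ 2 + xx δ y z ^ 2)
def Big (Y : Subgroup (Au F (V F))) : Prop :=
  ∃ (n w : V F) (C : Finset F), n ≠ 0 ∧ Q F w ≠ 0 ∧ 5 ≤ C.card ∧ ∀ c ∈ C, Ei (Q F) Y n (c • w)
/-- an irreducible group generated by `-1` and one orbit `R` of roots -/
structure Rt (Y : Subgroup (Au F (V F))) (δ : F) (R : Set (V F)) : Prop where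
  two : (2 : F) ≠ 0
  ne : δ ≠ 0
  le : Y ≤ orth (Q F)
  ex : R.Nonempty
  norm : ∀ x ∈ R, Q F x = δ
  rf : ∀ x ∈ R, (refl (Q F) x).1 ∈ Y
  neg : ∀ x ∈ R, -x ∈ R
  inv : ∀ g ∈ Y, ∀ x ∈ R, g x ∈ R
  tr : ∀ x ∈ R, ∀ y ∈ R, ∃ g ∈ Y, g x = y
  gen : ∀ Z : Subgroup (Au F (V F)), (∀ x ∈ R, (refl (Q F) x).1 ∈ Z) → LinearEquiv.neg F ∈ Z → Y ≤ Z
  irr : ∀ W : Submodule F (V F), (∀ g ∈ Y, ∀ x ∈ W, g x ∈ W) → W = ⊥ ∨ W = ⊤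
end

def T3 : Prop := ∀ (F : Type u) [Field F] [Fintype F] Y (δ : F) R, Rt Y δ R → ¬ Big Y → ∀ x ∈ R, ∀ y ∈ R, ∀ z ∈ R,
  gram δ x y z ≠ 0 → xx δ x y ≠ 0 → xx δ x z ≠ 0 ∨ xx δ y z ≠ 0 →
  (xx δ x y ^ 2 = 2 ∨ Od (xx δ x y ^ 2)) ∧ ¬ (xx δ x y ^ 2 = 2 ∧ Od (xx δ x z ^ 2) ∧ Od (xx δ y z ^ 2)) ∧
    (Pent (xx δ x y ^ 2) → ∃ a ∈ R, a ∈ Submodule.span F {x, y} ∧ xx δ a z = 0)
def DG : Prop := ∀ (F : Type u) [Field F] [Fintype F] Y (δ : F) R, Rt Y δ R → ∀ x ∈ R, ∀ y ∈ R,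
  (∀ z ∈ R, xx δ x y ^ 2 ≠ 4 → gram δ x y z = 0 → z ∉ Submodule.span F {x, y} → ∃ n w, n ≠ 0 ∧ polar (Q F) n x = 0 ∧
    polar (Q F) n y = 0 ∧ Ei (Q F) Y n w ∧ (polar (Q F) w x ≠ 0 ∨ polar (Q F) w y ≠ 0)) ∧
  ∀ n w, n ≠ 0 → polar (Q F) n x = 0 → polar (Q F) n y = 0 → Ei (Q F) Y n w → polar (Q F) w x ≠ 0 →
    (3 : F) ≠ 0 ∨ (xx δ x y ^ 2) ^ 3 ≠ xx δ x y ^ 2 → Big Y
/-- from `T3 DG` -/
def P1 : Prop := ∀ (F : Type u) [Field F] [Fintype F] Y (δ : F) R, Rt Y δ R → ¬ Big Y → ∀ x ∈ R, ∀ y ∈ R,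
  (x = y ∨ x = -y ∨ xx δ x y = 0 ∨ xx δ x y ^ 2 = 2 ∨ Od (xx δ x y ^ 2)) ∧ ∀ z ∈ R,
    ¬ (xx δ x y ^ 2 = 2 ∧ Od (xx δ x z ^ 2) ∧ Od (xx δ y z ^ 2)) ∧
    (Pent (xx δ x y ^ 2) → z ∉ Submodule.span F {x, y} → ∃ a ∈ R, a ∈ Submodule.span F {x, y} ∧ xx δ a z = 0)
def M4 : Prop := ∀ (F : Type u) [Field F] [Fintype F] Y (δ : F) R, Rt Y δ R →
  (∀ x ∈ R, ∀ y ∈ R, x = y ∨ x = -y ∨ xx δ x y = 0 ∨ xx δ x y ^ 2 = 2 ∨ Od (xx δ x y ^ 2)) →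
  (∀ x ∈ R, ∀ y ∈ R, ∀ z ∈ R, ¬ (xx δ x y ^ 2 = 2 ∧ Od (xx δ x z ^ 2) ∧ Od (xx δ y z ^ 2))) →
  ∀ x ∈ R, ∀ y ∈ R, xx δ x y ^ 2 ≠ 2
/-- uses the second part of `DG` -/
def M5 : Prop := ∀ (F : Type u) [Field F] [Fintype F] Y (δ : F) R, Rt Y δ R → ¬ Big Y →
  (∀ x ∈ R, ∀ y ∈ R, x = y ∨ x = -y ∨ xx δ x y = 0 ∨ Od (xx δ x y ^ 2)) →
  (∀ x ∈ R, ∀ y ∈ R, ∀ z ∈ R, Pent (xx δ x y ^ 2) → z ∉ Submodule.span F {x, y} →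
    ∃ a ∈ R, a ∈ Submodule.span F {x, y} ∧ xx δ a z = 0) → ∀ x ∈ R, ∀ y ∈ R, ¬ Pent (xx δ x y ^ 2)
def DK : Prop := ∀ (F : Type u) [Field F] [Fintype F] Y (δ : F) R, Rt Y δ R → Big Y →
  ∃ (n w : V F) (F₁ : Subfield F), n ≠ 0 ∧ Q F w ≠ 0 ∧ 5 ≤ Nat.card F₁ ∧ (∀ c ∈ F₁, Ei (Q F) Y n (c • w)) ∧
    ∀ x ∈ R, polar (Q F) n x ^ 2 * Q F w / δ ∈ F₁
def RT : Prop := ∀ (F : Type u) [Field F] [Fintype F] Y (δ : F) R (F₁ : Subfield F), Rt Y δ R →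
  (∀ n w : V F, n ≠ 0 → Q F w ≠ 0 → 5 ≤ Nat.card F₁ → (∀ c ∈ F₁, Ei (Q F) Y n (c • w)) →
    (∀ x ∈ R, polar (Q F) n x ^ 2 * Q F w / δ ∈ F₁) → ∀ x ∈ R, ∀ y ∈ R, xx δ x y ^ 2 ∈ F₁) ∧
  ((∀ x ∈ R, ∀ y ∈ R, xx δ x y ^ 2 ∈ F₁) → ∃ b : Basis ι F (V F), ∀ g ∈ Y, ∀ i j, b.repr (g (b j)) i ∈ F₁)
def EN : Prop := ∀ (F : Type u) [Field F] [Fintype F] Y (δ : F) R, Rt Y δ R → 5 ≤ Fintype.card F →
  ∀ n w : V F, n ≠ 0 → Q F w ≠ 0 → (∀ c : F, Ei (Q F) Y n (c • w)) → OmegaV (Q F) ≤ Y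
def TT1 : Prop := ∀ (G : Type u) [Group G] [Finite G] [IsSimpleGroup G] (D : Set G), ¬ IsMulCommutative G →
  IsThreeTranspositionClass D → (∀ a ∈ D, ∀ b ∈ D, ∀ c ∈ D, Commute a b ∨ Commute c a ∨ Commute c b ∨ Commute c (a * b * a)) →
  ∃ m, Nonempty (G ≃* Matrix.symplecticGroup (Fin m) (ZMod 2))
def TT2 : Prop := ∀ (F : Type u) [Field F] (G : Type u) [Group G] [Finite G] [IsSimpleGroup G] (_ : Rp F G) (m : ℕ),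
  ¬ IsMulCommutative G → Nonempty (G ≃* Matrix.symplecticGroup (Fin m) (ZMod 2)) → Nonempty (G ≃* PSp 3 (ZMod 2))
/-- from `S0480 SP4 BC` -/
def TT3 : Prop := ∀ (F : Type u) [Field F] [Fintype F] (H P : Subgroup (GL ι F)), Cx F H P → Fintype.card F = 3 →
  ∀ D : Set P, IsThreeTranspositionClass D → ∃ m, Nonempty (P ≃* Matrix.symplecticGroup (Fin m) (ZMod 2))
/-- glue of E -/
def TC : Prop := ∀ (F : Type u) [Field F] [Fintype F] (H P : Subgroup (GL ι F)) (h : Cx F H P), ¬ h.rp.NoC →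
  Nonempty (P ≃* PSp 3 (ZMod 2)) ∧ (Fintype.card F).Prime

end H26.O7
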