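/-
S5815: eigenspaces of isometries; the pieces `EV`, `QG`, `QQ`.
-/
import Cfsg.Agent.H26.O7J

set_option autoImplicit false
set_option linter.unusedSectionVars false

open Module QuadraticMap H12 Cfsg MatrixGroups Subgroup
namespace H26.O7
universe u v

section
variable {K : Type u} [Field K] {M : Type u} [AddCommGroup M] [Module K M] [FiniteDimensional K M]

theorem skew_even (h2 : (2 : K) ≠ 0) (β : LinearMap.BilinForm K M) (W : Submodule K M)
    (sk : ∀ x ∈ W, ∀ y ∈ W, β x y = -β y x) (nd : ∀ x ∈ W, (∀ y ∈ W, β x y = 0) → x = 0) : Even (finrank K W) := by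
  let b := Module.finBasis K W
  have d := (LinearMap.BilinForm.nondegenerate_iff_det_ne_zero (B := β.restrict W) b).1
    ⟨fun x h => Subtype.ext (nd x x.2 fun y hy => h ⟨y, hy⟩),
      fun x h => Subtype.ext (nd x x.2 fun y hy => (sk _ x.2 _ hy).trans (neg_eq_zero.2 (h ⟨y, hy⟩)))⟩
  have t : (LinearMap.BilinForm.toMatrix b (β.restrict W)).transpose = -LinearMap.BilinForm.toMatrix b (β.restrict W) := by
    ext i j; simpa using sk _ (b j).2 _ (b i).2
  have := congrArg Matrix.det t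
  rw [Matrix.det_transpose, Matrix.det_neg, Fintype.card_fin] at this
  refine (Nat.even_or_odd _).resolve_right fun o => d (mul_left_cancel₀ h2 ?_)
  rw [o.neg_one_pow] at this
  linear_combination this

/-- eigenspace -/
def Eg (g : Au K M) (c : K) : Submodule K M := LinearMap.ker ((g : M →ₗ[K] M) - c • 1)
theorem mem_Eg {g : Au K M} {c : K} {x : M} : x ∈ Eg g c ↔ g x = c • x := sub_eq_zero
/-- the `-1`-eigenspace -/
def Ng (g : Au K M) : Submodule K M := LinearMap.ker ((g : M →ₗ[K] M) + 1)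
theorem mem_Ng {g : Au K M} {x : M} : x ∈ Ng g ↔ g x = -x := add_eq_zero_iff_eq_neg

theorem eq_zero_of_neg (h2 : (2 : K) ≠ 0) {x : M} (h : x = -x) : x = 0 :=
  (smul_eq_zero.1 (by rw [two_smul]; exact add_eq_zero_iff_eq_neg.2 h)).resolve_left h2

theorem split (h2 : (2 : K) ≠ 0) {W : Submodule K M} {a : Au K M} (h : ∀ x ∈ W, a x ∈ W ∧ a (a x) = x) :
    finrank K W = finrank K ↥(W ⊓ fix a) + finrank K ↥(W ⊓ Ng a) := by
  rw [← Submodule.finrank_sup_add_finrank_inf_eq, show W ⊓ fix a ⊓ (W ⊓ Ng a) = ⊥ from (Submodule.eq_bot_iff _).2 fun x hx =>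
    eq_zero_of_neg h2 ((mem_fix.1 hx.1.2).symm.trans (mem_Ng.1 hx.2.2)), finrank_bot, add_zero]
  refine congrArg (fun U : Submodule K M => finrank K U) (le_antisymm (fun x hx => ?_) (sup_le inf_le_left inf_le_left))
  obtain ⟨h1, h3⟩ := h x hx
  rw [show x = (2 : K)⁻¹ • ((x + a x) + (x - a x)) by rw [add_add_sub_cancel, ← two_smul K, inv_smul_smul₀ h2]]
  exact Submodule.smul_mem _ _ (Submodule.add_mem_sup ⟨add_mem hx h1, mem_fix.2 (by rw [map_add, h3, add_comm])⟩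
    ⟨sub_mem hx h1, mem_Ng.2 (by rw [map_sub, h3, neg_sub])⟩)

theorem finrank_Ng (h2 : (2 : K) ≠ 0) {a : Au K M} (h : ∀ x, a (a x) = x) : finrank K (Ng a) = rk a := by
  have := split h2 (W := ⊤) (a := a) fun x _ => ⟨trivial, h x⟩
  rw [top_inf_eq, top_inf_eq, finrank_top] at this
  have := rk_add_fix a
  omega

variable {q : QuadraticForm K M}
theorem nd_fix (h2 : (2 : K) ≠ 0) {W : Submodule K M} (hW : (CForm.ofQuad q).NondegOn W) {a : Au K M} (ha : a ∈ orth q)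
    (h : ∀ x ∈ W, a x ∈ W ∧ a (a x) = x) : (CForm.ofQuad q).NondegOn (W ⊓ fix a) := fun x hx e => hW x hx.1 fun y hy => by
  have e1 : polar q x (y + a y) = 0 := e _ ⟨add_mem hy (h y hy).1, mem_fix.2 (by rw [map_add, (h y hy).2, add_comm])⟩
  have e2 : polar q (a x) (a y) = polar q x y := orth_polar ⟨a, ha⟩ x y
  rw [mem_fix.1 hx.2] at e2
  rw [polar_add_right, e2, ← two_mul] at e1
  exact (mul_eq_zero.1 e1).resolve_left h2
theorem nd_Ng (h2 : (2 : K) ≠ 0) {W : Submodule K M} (hW : (CForm.ofQuad q).NondegOn W) {a : Au K M} (ha : a ∈ orth q)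
    (h : ∀ x ∈ W, a x ∈ W ∧ a (a x) = x) : (CForm.ofQuad q).NondegOn (W ⊓ Ng a) := fun x hx e => hW x hx.1 fun y hy => by
  have e1 : polar q x (y - a y) = 0 := e _ ⟨sub_mem hy (h y hy).1, mem_Ng.2 (by rw [map_sub, (h y hy).2, neg_sub])⟩
  have e2 : polar q (a x) (a y) = polar q x y := orth_polar ⟨a, ha⟩ x y
  rw [mem_Ng.1 hx.2, polar_neg_left, neg_eq_iff_eq_neg] at e2
  rw [polar_sub_right, e2, sub_neg_eq_add, ← two_mul] at e1
  exact (mul_eq_zero.1 e1).resolve_left h2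
theorem nd_fix' (h2 : (2 : K) ≠ 0) (hq : QNondeg q) {a : Au K M} (ha : a ∈ orth q) (h : ∀ x, a (a x) = x) :
    (CForm.ofQuad q).NondegOn (fix a) := by
  simpa using nd_fix h2 ((CForm.nondegOn_top _).2 hq) ha fun x _ => ⟨trivial, h x⟩
theorem nd_Ng' (h2 : (2 : K) ≠ 0) (hq : QNondeg q) {a : Au K M} (ha : a ∈ orth q) (h : ∀ x, a (a x) = x) :
    (CForm.ofQuad q).NondegOn (Ng a) := by
  simpa using nd_Ng h2 ((CForm.nondegOn_top _).2 hq) ha fun x _ => ⟨trivial, h x⟩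
end

theorem ev : EV.{u} := by
  intro K _ M _ _ _ q h2 hq g hg n hn e
  have i : Function.Injective ((g : M →ₗ[K] M) + 1 : M →ₗ[K] M) := (injective_iff_map_eq_zero _).2 fun x hx => by
    have k : ∀ m, (g ^ m) x = (-1 : K) ^ m • x := fun m => by
      induction m with
      | zero => simp
      | succ m ih => rw [pow_succ', LinearEquiv.mul_apply, ih, map_smul, mem_Ng.1 hx, pow_succ, mul_smul, neg_one_smul]
    have := k n
    rw [e, hn.neg_one_pow, neg_one_smul] at this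
    exact eq_zero_of_neg h2 this
  obtain ⟨U, hU⟩ := (fix g).exists_isCompl
  have a := rk_add_fix g
  have b := Submodule.finrank_add_eq_of_isCompl hU
  rw [show rk g = finrank K U by omega]
  let β : LinearMap.BilinForm K M := (polarBilin q).compl₁₂ ((g : M →ₗ[K] M) - 1) ((g : M →ₗ[K] M) + 1)
  have hβ : ∀ x y, β x y = polar q (g x - x) (g y + y) := fun _ _ => rfl
  have sk : ∀ x y, β x y = -β y x := fun x y => by
    have := orth_polar ⟨g, hg⟩
    simp only [hβ, polar_sub_left, polar_add_right, this, polar_comm q (g y) x, polar_comm q y (g x), polar_comm q y x]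
    ring
  refine skew_even h2 β U (fun x _ y _ => sk x y) fun x hx h => ?_
  refine (Submodule.disjoint_def.1 hU.disjoint) x (mem_fix.2 (sub_eq_zero.1 (hq _ fun y => ?_))) hx
  obtain ⟨y, rfl⟩ := LinearMap.injective_iff_surjective.1 i y
  obtain ⟨y1, h1, y2, h3, rfl⟩ := Submodule.mem_sup.1 (hU.sup_eq_top ▸ Submodule.mem_top (x := y))
  change β x _ = 0
  rw [map_add, h y2 h3, sk, hβ, mem_fix.1 h1]; simp

theorem qg : QG.{u} := by
  intro K _ _ M _ _ _ q h2 W hW i hi j hj h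
  obtain ⟨c, hc⟩ := IsAlgClosed.exists_pow_nat_eq (-1 : K) two_pos
  have c0 : c ≠ 0 := by rintro rfl; simp at hc
  let P := W ⊓ Eg i c
  have pi := orth_polar ⟨i, hi⟩
  have pj := orth_polar ⟨j, hj⟩
  have dec : ∀ w ∈ W, ∃ x ∈ P, ∃ y ∈ P, w = x + j y := fun w hw => by
    obtain ⟨h1, h3, h4, h5, h6⟩ := h w hw
    refine ⟨(2 : K)⁻¹ • (w - c • i w), P.smul_mem _ ⟨sub_mem hw (W.smul_mem _ h1), mem_Eg.2 ?_⟩,
      -(2 : K)⁻¹ • (j w + c • j (i w)), P.smul_mem _ ⟨add_mem h3 (W.smul_mem _ (h _ h1).2.1), mem_Eg.2 ?_⟩, ?_⟩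
    · rw [map_sub, map_smul, h4]; linear_combination (norm := module) hc • i w
    · rw [map_add, map_smul, h6, (h _ h1).2.2.2.2, h4, map_neg]; linear_combination (norm := module) -hc • j (i w)
    · rw [map_smul, map_add, map_smul, h5, (h _ h1).2.2.2.1]
      match_scalars <;> field_simp <;> ring
  have e : Even (finrank K P) := skew_even h2 ((polarBilin q).compl₂ (j : M →ₗ[K] M)) P (fun x hx y hy => by
      change polar q x (j y) = -polar q y (j x)
      rw [← pj y, (h x hx.1).2.2.2.1, polar_neg_right, neg_neg, polar_comm]) fun x hx k => hW x hx.1 fun w hw => by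
    obtain ⟨y, hy, z, hz, rfl⟩ := dec w hw
    have a := pi x y
    simp only [mem_Eg.1 hx.2, mem_Eg.1 hy.2, polar_smul_left, polar_smul_right, smul_eq_mul] at a
    have b : polar q x (j z) = 0 := k z hz
    change polar q x _ = 0
    rw [polar_add_right, b, add_zero]
    refine mul_left_cancel₀ h2 ?_
    linear_combination -a + hc * polar q x y
  have d := Submodule.finrank_sup_add_finrank_inf_eq P (P.map (j : M →ₗ[K] M))
  rw [LinearEquiv.finrank_map_eq, show P ⊓ P.map (j : M →ₗ[K] M) = ⊥ from (Submodule.eq_bot_iff _).2 ?_, finrank_bot,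
    show P ⊔ P.map (j : M →ₗ[K] M) = W from le_antisymm (sup_le inf_le_left ?_) ?_] at d
  · obtain ⟨k, hk⟩ := e; omega
  · rintro _ ⟨x, hx, rfl⟩; exact (h x hx.1).2.1
  · intro w hw
    obtain ⟨y, hy, z, hz, rfl⟩ := dec w hw
    exact Submodule.add_mem_sup hy ⟨z, hz, rfl⟩
  · rintro _ ⟨hx, y, hy, rfl⟩
    have a := mem_Eg.1 hx.2
    rw [LinearEquiv.coe_coe, (h y hy.1).2.2.2.2, mem_Eg.1 hy.2, map_smul] at a
    exact (smul_eq_zero.1 (eq_zero_of_neg h2 a.symm)).resolve_left c0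

section
variable {K : Type u} [Field K] {G : Type v} [Group G] (R : Rp K G)
theorem Rp.ρρ {t : G} (h : t * t = 1) (x : V K) : R.ρ t (R.ρ t x) = x := by rw [← R.ρ_mul, h, map_one]; rfl
theorem Rp.ρ_comm {s t : G} (h : Commute s t) (x : V K) : R.ρ s (R.ρ t x) = R.ρ t (R.ρ s x) := by
  rw [← R.ρ_mul, h.eq, R.ρ_mul]
theorem Rp.ng_comm {s t : G} (h : Commute s t) {x : V K} (hx : x ∈ Ng (R.ρ t)) : R.ρ s x ∈ Ng (R.ρ t) :=
  mem_Ng.2 (by rw [← R.ρ_comm h, mem_Ng.1 hx, map_neg])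
theorem Rp.fix_comm {s t : G} (h : Commute s t) {x : V K} (hx : x ∈ fix (R.ρ t)) : R.ρ s x ∈ fix (R.ρ t) :=
  mem_fix.2 (by rw [← R.ρ_comm h, mem_fix.1 hx])
theorem Rp.fr_Ng {t : G} (h : t * t = 1) : finrank K (Ng (R.ρ t)) = R.r t := finrank_Ng R.two (R.ρρ h)
theorem Rp.fr_fix (t : G) : R.r t + finrank K (fix (R.ρ t)) = 7 := (rk_add_fix _).trans finrank_V
theorem Rp.nd_Ng {t : G} (h : t * t = 1) : (CForm.ofQuad (Q K)).NondegOn (Ng (R.ρ t)) :=
  nd_Ng' R.two (Q_nd R.two) (R.iso t) (R.ρρ h)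
theorem Rp.nd_fix {t : G} (h : t * t = 1) : (CForm.ofQuad (Q K)).NondegOn (fix (R.ρ t)) :=
  nd_fix' R.two (Q_nd R.two) (R.iso t) (R.ρρ h)
theorem Rp.r_ne {t : G} (h : t ≠ 1) : R.r t ≠ 0 := fun e => h (R.inj ((eq_one_of_rk e).trans (map_one _).symm))
/-- dimensions for a four-group -/
theorem Rp.four {s t : G} (hs : s * s = 1) (ht : t * t = 1) (c : Commute s t) :
    R.r s + R.r t = R.r (s * t) + 2 * finrank K ↥(Ng (R.ρ s) ⊓ Ng (R.ρ t)) := by
  have a := split R.two (W := Ng (R.ρ s)) (a := R.ρ t) fun x hx => ⟨R.ng_comm c.symm hx, R.ρρ ht x⟩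
  have b := split R.two (W := Ng (R.ρ t)) (a := R.ρ s) fun x hx => ⟨R.ng_comm c hx, R.ρρ hs x⟩
  have d := split R.two (W := Ng (R.ρ (s * t))) (a := R.ρ t) fun x hx =>
    ⟨R.ng_comm (c.symm.mul_right (Commute.refl t)) hx, R.ρρ ht x⟩
  rw [R.fr_Ng (by rw [c.symm.mul_mul_mul_comm, hs, ht, mul_one]),
    show Ng (R.ρ (s * t)) ⊓ fix (R.ρ t) = Ng (R.ρ s) ⊓ fix (R.ρ t) from Submodule.ext fun x => and_congr_left fun h => by
      simp only [SetLike.mem_coe, mem_Ng, R.ρ_mul, mem_fix.1 h],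
    show Ng (R.ρ (s * t)) ⊓ Ng (R.ρ t) = Ng (R.ρ t) ⊓ fix (R.ρ s) from Submodule.ext fun x => and_comm.trans
      (and_congr_right fun h => by simp only [SetLike.mem_coe, mem_Ng, mem_fix, R.ρ_mul, mem_Ng.1 h, map_neg, neg_inj])] at d
  rw [R.fr_Ng hs] at a
  rw [R.fr_Ng ht, inf_comm (Ng (R.ρ t)) (Ng (R.ρ s))] at b
  omega

theorem Qu.ci {z i j : G} (h : Qu z i j) : Commute i z := h.ii ▸ (Commute.refl i).mul_right (Commute.refl i)
theorem Qu.cj {z i j : G} (h : Qu z i j) : Commute j z := h.jj ▸ (Commute.refl j).mul_right (Commute.refl j)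
theorem Rp.qg [IsAlgClosed K] {z z' i j : G} (hi : i * i = z) (hj : j * j = z) (ij : i * j = z' * (j * i)) {W : Submodule K (V K)}
    (hW : (CForm.ofQuad (Q K)).NondegOn W) (le : W ≤ Ng (R.ρ z)) (le' : W ≤ Ng (R.ρ z'))
    (h : ∀ x ∈ W, R.ρ i x ∈ W ∧ R.ρ j x ∈ W) : 4 ∣ finrank K W :=
  O7.qg K _ _ R.two W hW _ (R.iso i) _ (R.iso j) fun x hx => ⟨(h x hx).1, (h x hx).2, by rw [← R.ρ_mul, hi, mem_Ng.1 (le hx)],
    by rw [← R.ρ_mul, hj, mem_Ng.1 (le hx)], by rw [← R.ρ_mul, ij, R.ρ_mul, R.ρ_mul, mem_Ng.1 (le' (h _ (h x hx).1).2)]⟩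
theorem Rp.qu [IsAlgClosed K] {z i j : G} (h : Qu z i j) : R.r z = 4 := by
  have := R.qg h.ii h.jj h.ij (R.nd_Ng h.zz) le_rfl le_rfl fun x hx => ⟨R.ng_comm h.ci hx, R.ng_comm h.cj hx⟩
  have := R.fr_Ng h.zz
  have := R.fr_fix z
  have := R.r_ne h.z1
  omega
end

theorem qq : QQ.{u, v} := by
  intro K _ _ G _ R z i j
  refine ⟨R.qu, fun z' i' j' h h' a b c d => ?_, fun a b h aa bb e c1 c2 c3 c4 => ?_, fun z' zz z1 c1 c2 hi hj a b e => ?_⟩
  · have iz : Commute i z' := h'.ii ▸ a.mul_right a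
    have jz : Commute j z' := h'.ii ▸ c.mul_right c
    have zz : Commute z z' := h.ii ▸ iz.mul_left iz
    have k := R.qg h.ii h.jj h.ij (nd_Ng R.two (R.nd_Ng h.zz) (R.iso z') fun x hx => ⟨R.ng_comm zz.symm hx, R.ρρ h'.zz x⟩)
      inf_le_left inf_le_left fun x hx => ⟨⟨R.ng_comm h.ci hx.1, R.ng_comm iz hx.2⟩, R.ng_comm h.cj hx.1, R.ng_comm jz hx.2⟩
    have f := R.four h.zz h'.zz zz
    have := R.fr_fix (z * z')
    have := Submodule.finrank_mono (inf_le_left : Ng (R.ρ z) ⊓ Ng (R.ρ z') ≤ _)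
    rw [R.fr_Ng h.zz] at this
    rw [R.qu h, R.qu h'] at *
    by_contra n
    exact R.r_ne (t := z * z') (fun e => n (by rw [eq_inv_of_mul_eq_one_left e, inv_eq_of_mul_eq_one_left h'.zz])) (by omega)
  · have a' : ∀ x, a * (a * x) = x := fun x => by rw [← mul_assoc, aa, one_mul]
    have b' : ∀ x, b * (b * x) = x := fun x => by rw [← mul_assoc, bb, one_mul]
    have z1 : z = a * b * (a * b) := by nth_rw 1 [e]; simp [mul_assoc, a', bb]
    have z2 : z = b * a * (b * a) := by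
      rw [← inv_eq_of_mul_eq_one_left h.zz, eq_comm, eq_inv_iff_mul_eq_one, z1]; simp [mul_assoc, a', b', bb]
    have az : Commute a z := by rw [commute_iff_eq]; nth_rw 1 [z1]; rw [z2]; simp [mul_assoc, a', aa]
    have bz : Commute b z := by rw [commute_iff_eq]; nth_rw 1 [z2]; rw [z1]; simp [mul_assoc, b', bb]
    have inv : ∀ x ∈ Ng (R.ρ z), R.ρ a x ∈ Ng (R.ρ z) ∧ R.ρ a (R.ρ a x) = x := fun x hx => ⟨R.ng_comm az hx, R.ρρ aa x⟩
    have k := R.qg h.ii h.jj h.ij (nd_fix R.two (R.nd_Ng h.zz) (R.iso a) inv) inf_le_left inf_le_left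
      fun x hx => ⟨⟨R.ng_comm h.ci hx.1, R.fix_comm c1 hx.2⟩, R.ng_comm h.cj hx.1, R.fix_comm c3 hx.2⟩
    have s := split R.two inv
    have d := (R.fr_Ng h.zz).trans (R.qu h)
    obtain ⟨x, hx, x0⟩ := (Submodule.ne_bot_iff _).1 (Submodule.one_le_finrank_iff.1 (by omega : 1 ≤ finrank K (Ng (R.ρ z))))
    have m : R.ρ a (R.ρ b x) = -R.ρ b (R.ρ a x) := by
      rw [← R.ρ_mul, e, R.ρ_mul, R.ρ_mul, mem_Ng.1 (R.ng_comm bz (inv x hx).1)]
    have hb := R.ng_comm bz hx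
    refine x0 ((R.ρ b).injective ((eq_zero_of_neg R.two ?_).trans (map_zero _).symm))
    rcases (by omega : finrank K ↥(Ng (R.ρ z) ⊓ fix (R.ρ a)) = finrank K (Ng (R.ρ z)) ∨
      finrank K ↥(Ng (R.ρ z) ⊓ Ng (R.ρ a)) = finrank K (Ng (R.ρ z))) with q | q <;>
      have q := Submodule.eq_of_le_of_finrank_eq inf_le_left q
    · rwa [mem_fix.1 (q.ge hx).2, mem_fix.1 (q.ge hb).2] at m
    · rw [mem_Ng.1 (q.ge hx).2, mem_Ng.1 (q.ge hb).2, map_neg, neg_neg] at m
      exact m.symm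
  · have zz' : z' * z' = 1 := by obtain ⟨c, rfl⟩ := isConj_iff.1 c1; rw [conj_mul, zz, mul_one, mul_inv_cancel]
    have iz : Commute i z := hi ▸ (Commute.refl i).mul_right (Commute.refl i)
    have jz : Commute j z := hj ▸ (Commute.refl j).mul_right (Commute.refl j)
    have c : Commute z z' := hi ▸ a.mul_left a
    have k := R.qg hi hj e (nd_Ng R.two (R.nd_Ng zz) (R.iso z') fun x hx => ⟨R.ng_comm c.symm hx, R.ρρ zz' x⟩)
      inf_le_left inf_le_right fun x hx => ⟨⟨R.ng_comm iz hx.1, R.ng_comm a hx.2⟩, R.ng_comm jz hx.1, R.ng_comm b hx.2⟩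
    have f := R.four zz zz' c
    rw [← R.r_isConj c1, ← R.r_isConj c2] at f
    have := R.fr_fix z
    have := R.r_ne z1
    omega

end H26.O7
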