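/-
S5815: elementary abelian 2-subgroups; the pieces `WT`, `E2`.
-/
import Cfsg.Agent.H26.O7A
import Cfsg.Agent.H12.OF11

set_option autoImplicit false
set_option linter.unusedSectionVars false

open Module QuadraticMap H12 Cfsg MatrixGroups Subgroup Finset
namespace H26.O7
universe u v

theorem u_inj {K : Type u} [Field K] (h2 : (2 : K) ≠ 0) {a b : ℤˣ} (h : ((a : ℤ) : K) = ((b : ℤ) : K)) : a = b := by
  rcases Int.units_eq_one_or a with rfl | rfl <;> rcases Int.units_eq_one_or b with rfl | rfl <;>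
    first | rfl | exact (h2 (by push_cast at h; first | linear_combination h | linear_combination -h)).elim

theorem wt : WT.{u, v} := by
  classical
  intro K _ G _ R E hE
  obtain ⟨b, h1, h2, -⟩ := exists_eigen_fam (Q := Q K) (A := E.map R.ρ) R.two (by rintro _ ⟨g, -, rfl⟩; exact R.iso g)
    (by rintro _ ⟨g, hg, rfl⟩; rw [← map_mul, hE g hg, map_one]) (Q_nd R.two) 7 finrank_V.ge
  have li : LinearIndependent K b := LinearMap.linearIndependent_of_isOrthoᵢ (B := polarBilin (Q K)) (fun i j h => h2 i j h)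
    fun i => (polar_self' _ _).trans_ne (mul_ne_zero R.two (h1 i).1)
  let B := basisOfLinearIndependentOfCardEqFinrank li (by simp)
  have hB : ∀ i, B i = b i := fun i => by simp [B]
  let w : Fin 7 → G → ℤˣ := fun i g => if R.ρ g (b i) = b i then 1 else -1
  have act : ∀ e ∈ E, ∀ i, R.ρ e (B i) = (((w i e : ℤˣ) : ℤ) : K) • B i := fun e he i => by
    simp only [w, hB]
    split_ifs with h
    · simpa using h
    · simpa using ((h1 i).2 _ ⟨e, he, rfl⟩).resolve_left h
  have dm : ∀ e ∈ E, LinearMap.toMatrix B B (R.ρ e : V K →ₗ[K] V K) = Matrix.diagonal fun i => (((w i e : ℤˣ) : ℤ) : K) :=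
    fun e he => by
      ext i j
      rw [LinearMap.toMatrix_apply, LinearEquiv.coe_coe, act e he, map_smul, B.repr_self, Matrix.diagonal_apply]
      split_ifs with h <;> simp [h]
  refine ⟨B, w, fun i => hB i ▸ (h1 i).1, fun i j h => by rw [hB, hB, h2 i j h], act, fun e he e' he' i => u_inj R.two ?_,
    fun e he => ?_, fun e he => u_inj R.two ?_⟩
  · refine smul_left_injective K (B.ne_zero i) ?_
    simp only
    rw [← act _ (mul_mem he he'), R.ρ_mul, act e' he', map_smul, act e he, smul_smul, mul_comm]; simp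
  · rw [Rp.r, rk, ← Matrix.toLin_toMatrix B B (_ - 1), ← Matrix.rank_eq_finrank_range_toLin, map_sub, dm e he,
      LinearMap.toMatrix_one, ← Matrix.diagonal_one, Matrix.diagonal_sub, Matrix.rank_diagonal, Fintype.card_subtype]
    refine congrArg card (filter_congr fun i _ => ?_)
    rcases Int.units_eq_one_or (w i e) with h | h <;> simp [h]
    exact fun k => R.two (by linear_combination -k)
  · rw [show (((1 : ℤˣ) : ℤ) : K) = 1 by simp, ← R.det e, ← LinearMap.det_toMatrix B, dm e he, Matrix.det_diagonal]; simp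

section
variable {K : Type u} [Field K] {G : Type v} [Group G] {R : Rp K G} {E : Subgroup G} {b : Basis (Fin 7) K (V K)}
  {w : Fin 7 → G → ℤˣ} (h : R.Wt E b w)
include h
theorem Rp.Wt.repr {e : G} (he : e ∈ E) (y : V K) (i : Fin 7) :
    b.repr (R.ρ e y) i = (((w i e : ℤˣ) : ℤ) : K) * b.repr y i := by
  have : (b.coord i).comp (R.ρ e : V K →ₗ[K] V K) = (((w i e : ℤˣ) : ℤ) : K) • b.coord i := b.ext fun j => by
    by_cases k : j = i <;> simp [h.act e he, k]
  exact LinearMap.congr_fun this y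
/-- an eigenvector has only coordinates of its weight -/
theorem Rp.Wt.zero {e : G} (he : e ∈ E) {y : V K} {c : ℤˣ} (hy : R.ρ e y = ((c : ℤ) : K) • y) {i : Fin 7} (n : w i e ≠ c) :
    b.repr y i = 0 := by
  have := h.repr he y i
  rw [hy, map_smul, Finsupp.smul_apply, smul_eq_mul] at this
  by_contra k
  exact n (u_inj R.two (mul_right_cancel₀ k this).symm)
theorem Rp.Wt.line {y : V K} {i : Fin 7} (k : ∀ j, j ≠ i → b.repr y j = 0) : y = b.repr y i • b i :=
  b.ext_elem fun j => by by_cases e : j = i <;> simp [e, k]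
theorem Rp.Wt.one (i : Fin 7) : w i 1 = 1 := by simpa using h.mul 1 (one_mem _) 1 (one_mem _) i
theorem Rp.Wt.tr {e : G} (he : e ∈ E) : ∑ i, (w i e : ℤ) = 7 - 2 * R.r e := by
  rw [h.rk e he, card_filter, show (7 : ℤ) = ∑ _i : Fin 7, 1 by simp]
  push_cast
  rw [mul_sum, ← sum_sub_distrib]
  exact sum_congr rfl fun i _ => by rcases Int.units_eq_one_or (w i e) with k | k <;> simp [k]
theorem Rp.Wt.even {e : G} (he : e ∈ E) : Even (R.r e) := by
  have := h.prod e he
  rw [← prod_filter_mul_prod_filter_not univ (fun i => w i e = -1), prod_congr rfl (fun i hi => (mem_filter.1 hi).2),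
    prod_const, ← h.rk e he, prod_eq_one fun i hi => (Int.units_eq_one_or _).resolve_right (mem_filter.1 hi).2, mul_one] at this
  exact (neg_one_pow_eq_one_iff_even (by decide)).1 this
theorem Rp.Wt.ext {e e' : G} (he : e ∈ E) (he' : e' ∈ E) (k : ∀ i, w i e = w i e') : e = e' :=
  R.inj (LinearEquiv.toLinearMap_injective (b.ext fun i => by simp [h.act e he, h.act e' he', k]))
open Classical in
theorem Rp.Wt.sum [Fintype E] (i j : Fin 7) :
    ∑ e : E, (w i e : ℤ) * w j e = if ∀ e ∈ E, w i e = w j e then (Fintype.card E : ℤ) else 0 := by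
  let f : E →* ℤ := ⟨⟨fun e => (w i e : ℤ) * w j e, by simp [h.one]⟩, fun a c => by
    simp only [Subgroup.coe_mul, h.mul _ a.2 _ c.2]; push_cast; ring⟩
  split_ifs with k
  · rw [sum_congr rfl fun (e : E) _ => show (w i e : ℤ) * w j e = 1 by rw [k e e.2, ← Units.val_mul, Int.units_mul_self]; rfl]; simp
  · refine sum_hom_units_eq_zero f fun e => k fun a ha => ?_
    have : (w i a : ℤ) * w j a = 1 := DFunLike.congr_fun e ⟨a, ha⟩
    rcases Int.units_eq_one_or (w i a) with c | c <;> rcases Int.units_eq_one_or (w j a) with d | d <;> simp_all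
open Classical in
theorem Rp.Wt.sum1 [Fintype E] (i : Fin 7) :
    ∑ e : E, (w i e : ℤ) = if ∀ e ∈ E, w i e = 1 then (Fintype.card E : ℤ) else 0 := by
  let f : E →* ℤ := ⟨⟨fun e => (w i e : ℤ), by simp [h.one]⟩, fun a c => by simp [h.mul _ a.2 _ c.2]⟩
  split_ifs with k
  · rw [sum_congr rfl fun (e : E) _ => show (w i e : ℤ) = 1 by rw [k e e.2]; rfl]; simp
  · exact sum_hom_units_eq_zero f fun e => k fun a ha => Units.ext (DFunLike.congr_fun e ⟨a, ha⟩)
end

theorem sq_closure {G : Type*} [Group G] {S : Set G} (h : ∀ a ∈ S, a * a = 1) (c : ∀ a ∈ S, ∀ b ∈ S, a * b = b * a) :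
    ∀ e ∈ closure S, e * e = 1 := fun e he => by
  have := isMulCommutative_closure c
  induction he using closure_induction with
  | mem x hx => exact h x hx
  | one => simp
  | mul x y hx hy a b =>
    rw [(show Commute y x from congrArg Subtype.val (this.1.1 (⟨y, hy⟩ : closure S) ⟨x, hx⟩)).mul_mul_mul_comm, a, b, mul_one]
  | inv x _ a => rw [← mul_inv_rev, a, inv_one]

theorem e2 : E2.{u, v} := by
  classical
  intro K _ G _ _ R
  have p1 : ∀ t : G, t * t = 1 → t ≠ 1 → R.r t = 2 ∨ R.r t = 4 ∨ R.r t = 6 := fun t tt t1 => by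
    obtain ⟨b, w, h⟩ := wt K G R (closure {t}) (sq_closure (by simpa) (by simp))
    obtain ⟨k, hk⟩ := h.even (subset_closure (rfl : t = t))
    have := R.fr_fix t
    have := R.r_ne t1
    omega
  refine ⟨p1, fun s t ss tt c e1 e2 => ?_, fun E hE => ?_⟩
  · have a := split R.two (W := fix (R.ρ s)) (a := R.ρ t) fun x hx => ⟨R.fix_comm (Commute.symm c) hx, R.ρρ tt x⟩
    have b := split R.two (W := Ng (R.ρ t)) (a := R.ρ s) fun x hx => ⟨R.ng_comm c hx, R.ρρ ss x⟩
    have f := R.four ss tt c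
    have := R.fr_fix s
    rw [R.fr_Ng tt, inf_comm (Ng (R.ρ t)), inf_comm (Ng (R.ρ t))] at b
    obtain ⟨x, hx, x0⟩ := exists_nonsingular (nd_fix R.two (R.nd_fix ss) (R.iso t) fun x hx =>
      ⟨R.fix_comm (Commute.symm c) hx, R.ρρ tt x⟩) (Submodule.one_le_finrank_iff.1 (by
        change 1 ≤ finrank K ↥(fix (R.ρ s) ⊓ fix (R.ρ t)); omega))
    refine ⟨x, x0, mem_fix.1 hx.1, mem_fix.1 hx.2, fun h4 y h1 h2 => ?_⟩
    obtain ⟨c, hc⟩ := (finrank_eq_one_iff_of_nonzero' (K := K) (⟨x, hx⟩ : ↥(fix (R.ρ s) ⊓ fix (R.ρ t))) fun e => x0 (by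
      rw [show x = 0 from congrArg Subtype.val e, map_zero])).1 (by omega) ⟨y, mem_fix.2 h1, mem_fix.2 h2⟩
    exact ⟨c, (congrArg Subtype.val hc).symm⟩
  let _ := Fintype.ofFinite E
  obtain ⟨b, w, h⟩ := wt K G R E hE
  have cnt : ∀ {b w}, R.Wt E b w → 7 * Nat.card E = Nat.card E * #{i | ∀ e ∈ E, w i e = 1} + 2 * ∑ e : E, R.r e :=
    fun {b w} h => by
      have := sum_congr rfl fun i (_ : i ∈ univ) => h.sum1 i
      rw [sum_comm, sum_congr rfl fun (e : E) _ => h.tr e.2, sum_ite, sum_sub_distrib, ← mul_sum] at this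
      simp only [sum_const, card_univ, nsmul_eq_mul, mul_zero, add_zero] at this
      rw [Nat.card_eq_fintype_card]
      zify
      linear_combination this
  refine ⟨?_, ⟨_, by rw [finsum_eq_sum_of_fintype]; exact cnt h⟩, fun cj => ?_⟩
  · refine (Nat.card_le_card_of_injective (fun (e : E) (i : Fin 6) => w i.succ e) fun e e' k => Subtype.ext (h.ext e.2 e'.2
      (Fin.cases ?_ (congrFun k)))).trans (by simp)
    have := (h.prod e e.2).trans (h.prod e' e'.2).symm
    rwa [Fin.prod_univ_succ, Fin.prod_univ_succ fun i => w i e', prod_congr rfl fun (i : Fin 6) _ =>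
      show w i.succ e = w i.succ e' from congrFun k i, mul_left_inj] at this
  have sm : ∀ t ∈ E, t ≠ 1 → ∑ e : E, R.r e = (Nat.card E - 1) * R.r t := fun t ht t1 => by
    rw [← sum_erase_add _ _ (mem_univ 1), sum_congr rfl fun (e : E) he => R.r_isConj (cj e e.2 t ht (by simpa using he) t1)]
    simp [Rp.r, rk_one]
  have ex : 1 < Nat.card E → ∃ t ∈ E, t ≠ 1 := fun k => by
    obtain ⟨t, ht⟩ := E.ne_bot_iff_exists_ne_one.1 (E.one_lt_card_iff_ne_bot.1 k)
    exact ⟨t, t.2, by simpa using ht⟩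
  refine ⟨fun c => ?_, fun c => ?_⟩
  · obtain ⟨t, ht, t1⟩ := ex (by omega)
    have := cnt h
    have := p1 t (hE t ht) t1
    rw [sm t ht t1, c] at *
    omega
  have r4 : ∀ {b w}, R.Wt E b w → ∀ t ∈ E, t ≠ 1 → R.r t = 4 ∧ #{i | ∀ e ∈ E, w i e = 1} = 0 := fun h t ht t1 => by
    have := cnt h
    have := p1 t (hE t ht) t1
    rw [sm t ht t1, c] at *
    omega
  obtain ⟨t, ht, t1⟩ := ex (by omega)
  have key : ∀ b w, R.Wt E b w → (∀ i j, (∀ e ∈ E, w i e = w j e) → i = j) ∧ ∀ i, ∃ e ∈ E, w i e = -1 := fun b w h => by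
    have nt : ∀ i, ¬ ∀ e ∈ E, w i e = 1 := fun i k =>
      card_ne_zero_of_mem (mem_filter.2 ⟨mem_univ i, k⟩) (r4 h t ht t1).2
    refine ⟨fun i j k => ?_, fun i => ?_⟩
    · have := sum_congr rfl fun i (_ : i ∈ univ) => h.sum i j
      rw [sum_comm, sum_congr rfl fun (e : E) _ => show ∑ i, (w i e : ℤ) * w j e = (if e = 1 then 8 else 0) - w j e by
        rw [← sum_mul, h.tr e.2]
        split_ifs with q
        · simp [q, h.one, Rp.r, rk_one]
        · rw [(r4 h e e.2 (by simpa using q)).1]; simp, sum_sub_distrib, h.sum1, if_neg (nt j), sum_ite, sum_ite,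
        ← Nat.card_eq_fintype_card, c] at this
      simp only [sum_const, filter_eq', mem_univ, if_true, card_singleton, nsmul_eq_mul] at this
      exact card_le_one.1 (by omega : #{i | ∀ e ∈ E, w i e = w j e} ≤ 1) i (mem_filter.2 ⟨mem_univ _, k⟩) j (by simp)
    · by_contra! k
      exact nt i fun e he => (Int.units_eq_one_or _).resolve_right (k e he)
  refine ⟨fun t ht t1 => (r4 h t ht t1).1, fun g hg => R.inj (LinearEquiv.toLinearMap_injective (b.ext fun i => ?_)), key⟩
  have l := h.line (y := R.ρ g (b i)) (i := i) fun j n => by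
    by_contra q
    refine n ((key b w h).1 j i fun e he => by_contra fun k => q (h.zero he ?_ k))
    rw [← R.ρ_mul, mem_centralizer_iff.1 hg e he, R.ρ_mul, h.act e he, map_smul]
  have q := R.Q_ρ g (b i)
  rw [l, Q_smul, mul_eq_right₀ (h.ns i)] at q
  rw [LinearEquiv.coe_coe, R.ρ_mul, l, map_smul, l, smul_smul, map_one]
  simpa using congrArg (· • b i) q

end H26.O7
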