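/-
S5815: small `SL₂` kit.
-/
import Cfsg.Agent.H26.O7J

set_option autoImplicit false

open Module QuadraticMap H12 Cfsg MatrixGroups Subgroup
namespace H26.O7
universe u v

theorem perf_of_simple {G : Type*} [Group G] (hs : IsSimpleGroup G) (hn : ¬ IsMulCommutative G) : commutator G = ⊤ :=
  (hs.eq_bot_or_eq_top_of_normal _ inferInstance).resolve_left fun e => hn ((commutator_eq_bot_iff _).1 e)

section
variable {F : Type} [Field F] {G : Type*} [Group G]
theorem up_val (t : F) : (up t).1 = !![1, t; 0, 1] := rfl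
theorem dg_val (a : Fˣ) : (dg a).1 = !![(a : F), 0; 0, ((a⁻¹ : Fˣ) : F)] := rfl
theorem wy_val : (wy F).1 = !![0, 1; -1, 0] := rfl
theorem wy_inv : (wy F)⁻¹ = -wy F := by
  ext i j; fin_cases i <;> fin_cases j <;> simp [wy_val, Matrix.SpecialLinearGroup.coe_inv]
theorem up_add (s t : F) : up (s + t) = up s * up t := by
  ext i j; fin_cases i <;> fin_cases j <;> simp [up_val, add_comm]
theorem up_zero : up (0 : F) = 1 := by ext i j; fin_cases i <;> fin_cases j <;> simp [up_val]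
theorem up_pow (s : F) (n : ℕ) : up s ^ n = up (n * s) := by
  induction n with
  | zero => simp [up_zero]
  | succ n ih => rw [pow_succ, ih, ← up_add]; congr 1; push_cast; ring
theorem dg_up (a : Fˣ) (s : F) : dg a * up s = up (a * a * s) * dg a := by
  ext i j; fin_cases i <;> fin_cases j <;> simp [up_val, dg_val]; field_simp
theorem up_wy (a : Fˣ) : (up (a : F) * (wy F * up ((a⁻¹ : Fˣ) : F) * (wy F)⁻¹) * up (a : F)) ^ 2 = -1 := by
  ext i j; fin_cases i <;> fin_cases j <;> simp [up_val, wy_val, wy_inv, pow_two]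
theorem up_ne (φ : SL(2, F) →* G) (h : φ (-1) ≠ 1) {s : F} (e : φ (up s) = 1) : s = 0 := by
  by_contra s0
  have := congrArg φ (dg_up (Units.mk0 s s0)⁻¹ s)
  rw [map_mul, map_mul, e, mul_one, show _ * _ * s = ((Units.mk0 s s0)⁻¹ : Fˣ) by simp [s0], right_eq_mul] at this
  refine h ?_
  rw [← up_wy (Units.mk0 s s0), map_pow, map_mul, map_mul, map_mul, map_mul, this, Units.val_mk0, e]; simp
theorem ex_qu [Fintype F] (φ : SL(2, F) →* G) (h : φ (-1) ≠ 1) : ∃ i j, i * i = -1 ∧ j * j = -1 ∧ Qu (φ (-1)) (φ i) (φ j) := by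
  obtain ⟨p, hp⟩ := CharP.exists F
  have : NeZero p := ⟨CharP.char_ne_zero_of_finite F p⟩
  obtain ⟨a, b, e⟩ := CharP.sq_add_sq F p (-1)
  let j : SL(2, F) := ⟨!![(a : F), b; b, -a], by simp [Matrix.det_fin_two]; push_cast at e; linear_combination -e⟩
  have jv : j.1 = !![(a : F), b; b, -a] := rfl
  have ii : wy F * wy F = -1 := by ext i j; fin_cases i <;> fin_cases j <;> simp [wy_val]
  have jj : j * j = -1 := by
    push_cast at e
    ext i j; fin_cases i <;> fin_cases j <;> simp [jv] <;> first | linear_combination e | ring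
  have ij : wy F * j = -1 * (j * wy F) := by ext i j; fin_cases i <;> fin_cases j <;> simp [jv, wy_val]
  exact ⟨_, _, ii, jj, by rw [← map_mul, ii], by rw [← map_mul, jj], by rw [← map_mul, ij, map_mul, map_mul],
    by rw [← map_mul]; simp, h⟩
theorem ex_sq_ne [Fintype F] (h : 5 ≤ Fintype.card F) : ∃ a : Fˣ, (a : F) * a ≠ 1 := by
  classical
  by_contra! k
  have : (Finset.univ : Finset F) ⊆ {0, 1, -1} := fun x _ => by
    by_cases x0 : x = 0
    · simp [x0]
    · simp [mul_self_eq_one_iff.1 (show x * x = 1 from k (Units.mk0 x x0))]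
  have := (Finset.card_le_card this).trans Finset.card_le_three
  rw [Finset.card_univ] at this; omega

/-- cross characteristic 3 -/
theorem uu {F₂ : Type} [Field F₂] [Fintype F] [Fintype F₂] [CharP F 3] [CharP F₂ 3] {φ₁ : SL(2, F) →* G} {φ₂ : SL(2, F₂) →* G}
    (h1 : φ₁ (-1) ≠ 1) (h2 : φ₂ (-1) ≠ 1) (c : ∀ a b, Commute (φ₁ a) (φ₂ b)) (h5 : 5 ≤ Fintype.card F) :
    ∃ A : Subgroup G, (∀ a ∈ A, a ^ 3 = 1) ∧ (∀ a ∈ A, ∀ b ∈ A, a * b = b * a) ∧
      Nat.card A = Fintype.card F * Fintype.card F₂ := by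
  let f : Multiplicative (F × F₂) →* G := MonoidHom.mk' (fun x => φ₁ (up x.toAdd.1) * φ₂ (up x.toAdd.2)) fun x y => by
    simp only [toAdd_mul, Prod.fst_add, Prod.snd_add, up_add, map_mul, mul_assoc]
    rw [(c _ _).left_comm]
  refine ⟨f.range, ?_, ?_, ?_⟩
  · rintro _ ⟨x, rfl⟩
    rw [← map_pow, show x ^ 3 = 1 from ?_, map_one]
    refine Multiplicative.toAdd.injective (Prod.ext ?_ ?_) <;> simp [CharP.ofNat_eq_zero]
  · rintro _ ⟨x, rfl⟩ _ ⟨y, rfl⟩
    rw [← map_mul, mul_comm, map_mul]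
  · rw [← Nat.card_congr (MonoidHom.ofInjective ((injective_iff_map_eq_one f).2 fun x e => ?_)).toEquiv]
    · simp
    obtain ⟨a, ha⟩ := ex_sq_ne h5
    replace e : φ₁ (up x.toAdd.1) = (φ₂ (up x.toAdd.2))⁻¹ := eq_inv_of_mul_eq_one_left e
    have k := congrArg φ₁ (dg_up a x.toAdd.1)
    rw [map_mul, map_mul, e, (c _ _).inv_right.eq, ← e, mul_left_inj, show (a : F) * a * x.toAdd.1 =
      x.toAdd.1 + (a * a - 1) * x.toAdd.1 by ring, up_add, map_mul, left_eq_mul] at k
    have k := (mul_eq_zero.1 (up_ne φ₁ h1 k)).resolve_left (sub_ne_zero.2 ha)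
    rw [k, up_zero, map_one, eq_comm, inv_eq_one] at e
    exact Multiplicative.toAdd.injective (Prod.ext k (up_ne φ₂ h2 e))
end

end H26.O7
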