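/-
S5815: the assembly.
-/
import Cfsg.Agent.H26.O7J

set_option autoImplicit false

open Module QuadraticMap H12 Cfsg MatrixGroups Subgroup
namespace H26.O7
universe u v

section
variable {K : Type u} [Field K] {G : Type v} [Group G] {G' : Type*} [Group G'] (R : Rp K G) (e : G' ≃* G)
/-- transport along an isomorphism -/
def Rp.tr : Rp K G' := R.comp e.toMonoidHom e.injective
theorem Rp.tr_r (g : G') : (R.tr e).r g = R.r (e g) := rfl
variable {R}
theorem Rp.Irr.tr (h : R.Irr) : (R.tr e).Irr := fun W hW => h W fun g x hx => by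
  obtain ⟨g, rfl⟩ := e.surjective g; exact hW g x hx
theorem Rp.NoC.tr (h : R.NoC) : (R.tr e).NoC := fun t ht => h (e t) (by rw [← map_mul, ht, map_one])
theorem Rp.Red.of_tr (h : (R.tr e).Red) : R.Red := by
  obtain ⟨s, s0, hs⟩ := h
  exact ⟨s, s0, fun g => by obtain ⟨g, rfl⟩ := e.surjective g; exact hs g⟩
end

theorem Fam.iso {G : Type v} [Group G] {G' : Type*} [Group G'] (h : Fam.{u} G') (e : G ≃* G') : Fam.{u} G :=
  fun K _ _ p _ _ R hi hn => (h K p (R.tr e.symm) (hi.tr _) (hn.tr _)).of_tr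
theorem Kill.fam {G : Type v} [Group G] (h : Kill.{u} G) : Fam.{u} G := fun K _ _ p _ _ R hi _ => (h K p R hi).elim
theorem Kill0.fam {G : Type v} [Group G] (h : Kill0.{u} G) : Fam.{u} G := fun K _ _ p _ _ R _ _ => (h K p R).elim

theorem l2 (a : L2A.{u}) (b : L2P.{u}) (c : L2G.{u, 0}) (d : L2S.{u, 0}) (F : Type) [Field F] [Fintype F]
    (h4 : 4 ≤ Fintype.card F) (h8 : Fintype.card F ≠ 8) : Fam.{u} PSL(2, F) := by
  intro K _ _ p _ _ R hi hn
  obtain ⟨a1, a2, a3, a4⟩ := a F K R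
  obtain ⟨l, _, n, hl, hc⟩ := FiniteField.card' F
  rcases Nat.even_or_odd (Fintype.card F) with ev | od
  · have l2 : l = 2 := by
      rw [hc] at ev
      exact (Nat.Prime.even_iff hl).1 (Nat.even_pow.1 ev).1
    have := a2 ev
    refine (a3 (.inl ?_) hi).elim
    rw [hc, l2] at this h4 h8 ⊢
    have : (n : ℕ) < 4 := (Nat.pow_lt_pow_iff_right (by norm_num)).1 (this.trans_eq (by norm_num : 16 = 2 ^ 4))
    generalize (n : ℕ) = m at *
    interval_cases m <;> simp_all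
  obtain ⟨k, hk⟩ := id od
  by_cases h5 : Fintype.card F = 5
  · exact (a3 (.inr h5) hi).elim
  by_cases h7 : Fintype.card F = 7
  · exact b F K p R h7.ge (.inr (.inl h7)) hi hn
  by_cases h0 : (Fintype.card F : K) = 0
  · have : l = p := by
      rw [CharP.cast_eq_zero_iff K p, hc] at h0
      exact ((Nat.prime_dvd_prime_iff_eq Fact.out hl).1 (Nat.Prime.dvd_of_dvd_pow Fact.out h0)).symm
    subst this
    have s : Function.Surjective (QuotientGroup.mk' (center SL(2, F))) := QuotientGroup.mk'_surjective _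
    have m : QuotientGroup.mk' (center SL(2, F)) (-1) = 1 :=
      (QuotientGroup.eq_one_iff _).2 (mem_center_iff.2 fun g => by simp)
    obtain ⟨p7, x, hx⟩ := c K l PSL(2, F) R F _ (by omega) s m hi
    exact d K l PSL(2, F) R F _ x s m hi hn p7 hx
  by_cases h9 : Fintype.card F = 9
  · refine (a4 h9 (fun e => h0 ?_) hi).elim
    rw [h9]; push_cast; linear_combination 3 * e
  · exact b F K p R (by omega) (.inr (.inr (a1 od h0 (by omega)))) hi hn

theorem main (bc : BC.{u, u}) (tc : TC.{u}) (r4 : R4.{u, u}) (id' : ID.{u}) (e2 : E2.{u, u}) (l2a : L2A.{u}) (l2p : L2P.{u})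
    (l2g : L2G.{u, 0}) (l2s : L2S.{u, 0}) (l28 : L28.{u}) (l28f : L28F.{u}) (l3a : L3A.{u}) (l3b : L3B.{u}) (u3a : U3A.{u})
    (u3b : U3B.{u}) (sz : SZ.{u}) (mk : MK.{u, u}) (j1 : J1.{u}) (an : AN.{u}) (g23 : G23.{u}) (gd : GD.{u}) (sp4 : SP4.{u})
    (l4 : L4.{u}) (u4 : U4.{u}) (kl1 : KL1.{u}) (kl2 : KL2.{u}) (a8 : A8F.{u}) (a9 : A9F.{u})
    {F : Type u} [Field F] [Fintype F] {H P : Subgroup (GL ι F)} (h : Cx F H P) :
    Nonempty (P ≃* alternatingGroup (Fin 9)) ∧ Fintype.card F = 3 ∨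
      Nonempty (P ≃* PSp 3 (ZMod 2)) ∧ (Fintype.card F).Prime ∨ Nonempty (P ≃* Lie.G2 F) := by
  by_cases nc : h.rp.NoC
  swap
  · exact .inr (.inl (tc F H P h nc))
  let K := AlgebraicClosure F
  obtain ⟨b1, b2⟩ := bc F K
  obtain ⟨R, hR, hr⟩ := b1 P h.rp
  obtain ⟨hi, hs, hna, -⟩ := b2 H P h
  replace hi := hi R hR
  have hn : R.NoC := fun t ht => by rw [hr]; exact nc t ht
  obtain ⟨p, hp⟩ := CharP.exists F
  have : Fact p.Prime := ⟨CharP.char_is_prime F p⟩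
  have : CharP K p := charP_of_injective_algebraMap (algebraMap F K).injective p
  have h3 : (3 : K) = 0 ↔ (3 : F) = 0 := by
    rw [← map_ofNat (algebraMap F K) 3, map_eq_zero]
  have pf : commutator P = ⊤ := (hs.eq_bot_or_eq_top_of_normal _ inferInstance).resolve_left fun e => hna
    ⟨⟨fun a b => by
      have := commutator_mem_commutator (mem_top a) (mem_top b)
      rwa [← _root_.commutator_def, e, mem_bot, commutatorElement_eq_one_iff_mul_comm] at this⟩⟩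
  have red : R.Red → Nonempty (P ≃* Lie.G2 F) := fun q => by
    obtain ⟨s, s0, hs⟩ := kl1 F P h.rp R hR pf hi q
    exact kl2 F H P h s s0 hs
  have fam : Fam.{u} P → Nonempty (P ≃* Lie.G2 F) := fun q => red (q K p R hi hn)
  rcases id' P hna (r4 F P h.rp nc) with ⟨F', _, _, hc⟩ | ⟨F', _, _, m, m1, hc, ⟨e⟩⟩ | ⟨n, n7, n11, ⟨e⟩⟩ | hc | ⟨⟨e⟩⟩ | ⟨⟨e⟩⟩ |
    ⟨⟨e⟩⟩ | ⟨E, c, e1, e2'⟩
  · refine .inr (.inr ?_)
    rcases hc with ⟨h4, ⟨e⟩⟩ | ⟨od, ⟨⟨e⟩⟩ | ⟨⟨e⟩⟩ | ⟨⟨e⟩⟩ | ⟨⟨e⟩⟩ | ⟨⟨e⟩⟩⟩ | ⟨c, ⟨e⟩⟩ | ⟨r, ⟨c, ⟨o, ⟨e⟩⟩ | ⟨o, ⟨⟨e⟩⟩ | ⟨⟨e⟩⟩⟩⟩ | ⟨o, c, ⟨e⟩⟩⟩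
    · by_cases h8 : Fintype.card F' = 8
      · rcases l28 F' K p (R.tr e.symm) h8 (hi.tr _) (hn.tr _) with q | ⟨q, q'⟩
        · exact red q.of_tr
        · refine (l28f F H P h F' h8 ⟨e⟩ (fun a => q (h3.2 a)) fun y hy => ?_).elim
          have := q' (e y) (by rw [e.orderOf_eq, hy])
          rwa [Rp.tr_r, e.symm_apply_apply, hr] at this
      · exact fam ((l2 l2a l2p l2g l2s F' h4 h8).iso e)
    · have := Fintype.one_lt_card (α := F')
      obtain ⟨k, hk⟩ := id od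
      by_cases c3 : Fintype.card F' = 3
      · exact fam (((l3b F' od).2 c3).iso e)
      by_cases d : 3 ∣ Fintype.card F' - 1
      · exact fam (((l3b F' od).1 d).fam.iso e)
      · exact fam ((l3a F' od (by omega) d).iso e)
    · exact fam ((l4 F' od).1.fam.iso e)
    · exact fam ((l4 F' od).2.fam.iso e)
    · exact fam ((sp4 F' od).fam.iso e)
    · have := Fintype.one_lt_card (α := F')
      obtain ⟨k, hk⟩ := id od
      by_cases c3 : Fintype.card F' = 3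
      · exact fam ((g23 F' c3).iso e)
      · exact fam ((gd.1 F' od (by omega)).iso e)
    · exact fam ((sz.1 F' c).fam.iso e)
    · by_cases d : Odd r ∧ ¬ 3 ∣ r + 1
      · exact fam ((u3a F' r c d.1 d.2).iso e)
      · exact fam ((u3b F' r c (by tauto)).fam.iso e)
    · exact fam ((u4 F' r c o).1.fam.iso e)
    · exact fam ((u4 F' r c o).2.fam.iso e)
    · exact fam ((gd.2.1 F' r o c).iso e)
  · exact .inr (.inr (fam ((gd.2.2 F' m m1 hc).iso e)))
  · obtain ⟨a7, a9', a10, a11⟩ := an K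
    interval_cases n
    · exact (a7 (R.tr e.symm) (hi.tr _) (hn.tr _)).elim
    · exact ((a8 F H P h).false e).elim
    · exact .inl ⟨⟨e⟩, a9 F H P h (h3.1 (a9' (R.tr e.symm))) ⟨e⟩⟩
    · exact (a10 (R.tr e.symm)).elim
    · exact (a11 (R.tr e.symm)).elim
  · exact (mk.1 P hc K p R).elim
  · exact .inr (.inr (fam (mk.2.fam.iso e)))
  · exact .inr (.inr (fam (Fam.iso j1 e)))
  · exact .inr (.inr (fam (sz.2.fam.iso e)))
  · exact ((((e2 K P R).2.2 E e1).2.2 fun s hs t ht => e2' s hs t ht).1 c).elim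

end H26.O7
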