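/-
S5815, piece J1.
-/
import Cfsg.Agent.H26.O7M
import Cfsg.Agent.H26.O7S
import Cfsg.Agent.H16.L.J1

set_option autoImplicit false

open Cfsg Subgroup H16 H16.J1
namespace H26.O7
universe u

theorem A4.of_cube {G : Type*} [Group G] {t y : G} (tt : t * t = 1) (t1 : t ≠ 1) (y3 : y ^ 3 = 1) (h : (t * y) ^ 3 = 1) :
    A4 t y := ⟨y3, tt, t1, by
  have a : y⁻¹ = y * y := inv_eq_of_mul_eq_one_right (by rw [← y3, pow_three])
  have b : t * y * t = y⁻¹ * t * y⁻¹ := by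
    rw [pow_three] at h
    calc t * y * t = t * y * (t * y * (t * y)) * y⁻¹ * t⁻¹ * y⁻¹ := by group
      _ = _ := by rw [h, one_mul, inv_eq_of_mul_eq_one_right tt]
  calc t * (y * t * y⁻¹) = t * y * t * y⁻¹ := by group
    _ = y⁻¹ * t * (y⁻¹ * y⁻¹) := by rw [b]; group
    _ = _ := by rw [← mul_inv_rev, ← a, inv_inv]⟩

namespace JJ
noncomputable def g' (k : ℕ) : gen g 4 := if h : k < 4 then ⟨g k, mem_gen g h⟩ else 1
theorem g'_val {k : ℕ} (hk : k < 4) : (g' k).1 = g k := by rw [g', dif_pos hk]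
theorem act' : Act g' (ptF 266) P 266 4 := fun k hk i hi =>
  ⟨(act k hk i hi).1, by rw [Subgroup.smul_def, g'_val hk]; exact (act k hk i hi).2⟩
theorem base' (A : Subgroup (gen g 4)) : IsBase A (ptF 266) B := fun a _ h => Subtype.ext (isBase a.1 a.2 h)
theorem top : gen g' 4 = ⊤ := eq_top_iff.2 fun a _ => by
  obtain ⟨b, hb, e⟩ := (gen_le (A := (gen g' 4).map (gen g 4).subtype)).2
    (fun k hk => ⟨g' k, mem_gen g' hk, g'_val hk⟩) a.2
  exact Subtype.ext e ▸ hb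
theorem pt_eq {W W' : List ℕ} (l : ltAll 4 W = 0) (l' : ltAll 4 W' = 0) (e : evA g' W = evA g' W') :
    apW P W 2 = apW P W' 2 := by
  have a1 := act'.apW (ltAll_zero l) (i := 2) (by decide)
  have a2 := act'.apW (ltAll_zero l') (i := 2) (by decide)
  exact ptF_inj 266 _ a1.1 _ a2.1 (by rw [← a1.2, ← a2.2, e])
theorem pw {W : List ℕ} {f : ℕ} (h : powL P 4 B W f = 0) : evA g' W ^ f = 1 := (powL_eq_one act' Blt (base' _) h).2
theorem ee {W W' : List ℕ} (h : eqL P 4 B W W' = 0) : evA g' W = evA g' W' := eqL_sound act' Blt (base' _) h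
abbrev Y : List ℕ := [0, 0, 3, 2, 0, 2, 3]
abbrev T : List ℕ := [0, 3, 2, 0, 3]

theorem gn : closure {evA g' [2], evA g' Y} = ⊤ := eq_top_iff.2 (top ▸
  slpX_sound (K₀ := 4) (K₁ := 0) (m := 2) act' Blt (base' _) (Ws := [[2], Y, [3, 2, 1, 2, 0, 0, 3]])
    (L := [(6, [5]), (0, [4, 6, 4, 5, 4, 6, 4, 6, 4, 5, 4, 6, 4, 6, 4, 5, 4, 5, 4, 6, 4, 5, 4, 6, 4, 5, 4, 6, 4, 5]),
      (1, [0]), (2, [4]), (3, [6, 4, 6, 4, 5, 4, 6, 4, 5, 4, 5, 4, 6, 4, 6, 4, 5, 4, 6, 4, 5, 4, 5])])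
    (by decide +kernel) le_rfl (by decide) (gen_le.2 fun _ hk => absurd hk (by omega)) fun i hi =>
      subset_closure (by interval_cases i <;> simp))

theorem cj : IsConj (evA g' (Y ++ [2])) (evA g' (Y ++ [2]) ^ 2) := isConj_iff.2 ⟨evA g' [1, 2, 1, 2, 0, 2, 1, 1, 3, 2, 1], by
  rw [mul_inv_eq_iff_eq_mul, sq, ← evA_append, ← evA_append, ← evA_append]
  exact ee (by decide +kernel)⟩

theorem cj' : IsConj (evA g' [2]) (evA g' T) := isConj_iff.2 ⟨evA g' [0, 3], by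
  rw [mul_inv_eq_iff_eq_mul, ← evA_append, ← evA_append]
  exact ee (by decide +kernel)⟩

theorem a4 : A4 (evA g' T) (evA g' Y) := A4.of_cube (by rw [← sq]; exact pw (by decide +kernel))
  (fun e => absurd (pt_eq (W' := []) (by decide +kernel) (by decide +kernel) e) (by decide +kernel))
  (pw (by decide +kernel)) (by rw [← evA_append]; exact pw (by decide +kernel))

theorem perf : commutator (gen g 4) = ⊤ := perf_of_simple simple fun c => by
  have := c.is_comm.comm (evA g' [2]) (evA g' [3])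
  rw [← evA_append, ← evA_append] at this
  exact absurd (pt_eq (by decide +kernel) (by decide +kernel) this) (by decide +kernel)
end JJ

theorem j1 (hz : HZ.{u, 0}) : O7.J1.{u} := by
  obtain ⟨e⟩ := LJ1.nonempty_equiv
  refine Fam.iso (fun K _ _ p _ _ R hi hn => ?_) e.symm
  refine (hz K p _ R _ _ ?_ JJ.a4.y3 ?_).2 hi hn JJ.perf JJ.gn (.inr (.inr ⟨_, _, JJ.cj', IsConj.refl _, JJ.a4⟩))
  · rw [← sq]; exact JJ.pw (by decide +kernel)
  · rw [← evA_append]
    exact .inr (.inl ⟨JJ.pw (by decide +kernel), JJ.cj⟩)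

end H26.O7
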