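/-
S5815, piece L28F: the rational representation of `L₂(8)` preserves a root system.
-/
import Cfsg.Agent.H24.O7b

set_option autoImplicit false
set_option linter.unusedSectionVars false

open Module QuadraticMap H12 Cfsg MatrixGroups Subgroup
namespace H26.O7
universe u

namespace L8
def Zs (c : ZMod 7 → ℤˣ) (x : ZMod 7) : Prop := ∃ i k, i ≠ x - i ∧ k ≠ x - k ∧ c (0 - 2 * i) = 1 ∧
  c (0 - 2 * (x - i)) = 1 ∧ c (0 - 2 * k) = -1 ∧ c (0 - 2 * (x - k)) = -1
instance (c : ZMod 7 → ℤˣ) (x : ZMod 7) : Decidable (Zs c x) := by unfold Zs; infer_instance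
def μ (k : ZMod 7) : ℤˣ := if k = 0 ∨ k = 1 then -1 else 1
def ν (k : ZMod 7) : ℤˣ := if k = 0 then -1 else 1
def Sg (c : ZMod 7 → ℤˣ) : Prop := (∀ k l, k ≠ l → ∃ m, c (m - 2 * k) = -c (m - 2 * l)) ∧
  (∀ j, ∃ σ : ℤˣ, (∀ k, Zs c (j + k) ∨ ν k = σ) ∨ ∃ m, ∀ k, Zs c (j + k) ∨ ν k = σ * c (m - 2 * k)) ∧
  ∀ m, ∃ k, c (m - 2 * (1 + k)) ≠ μ k * μ (1 + k)
set_option synthInstance.maxSize 1000 in
instance (c : ZMod 7 → ℤˣ) : Decidable (Sg c) := by unfold Sg; infer_instance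
theorem sg : ∀ c : ZMod 7 → ℤˣ, (∀ n, c (n + 3) = c (n + 1) * c n) → c 0 = -1 → Sg c := by decide +kernel

section
variable (F : Type u) [Field F]
def sc (σ : ℤˣ) : F := ((σ : ℤ) : F)
@[simp] theorem sc_one : sc F 1 = 1 := by simp [sc]
@[simp] theorem sc_neg (σ : ℤˣ) : sc F (-σ) = -sc F σ := by simp [sc]
theorem sc_mul (σ τ : ℤˣ) : sc F (σ * τ) = sc F σ * sc F τ := by simp [sc]
theorem sc_sq (σ : ℤˣ) : sc F σ * sc F σ = 1 := by rw [← sc_mul, Int.units_mul_self, sc_one]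
theorem sc_ne (σ : ℤˣ) : sc F σ ≠ 0 := left_ne_zero_of_mul_eq_one (sc_sq F σ)
end

variable {F' : Type} [Field F']
open H24.O7

theorem bruhat (M : SL(2, F')) : (∃ a t, M = dg a * up t) ∨ ∃ s a t, M = up s * wy F' * dg a * up t := by
  have d := det2 M
  by_cases c : M.1 1 0 = 0
  · have a : M.1 0 0 ≠ 0 := fun e => by simp [c, e] at d
    refine .inl ⟨Units.mk0 _ a, M.1 0 1 / M.1 0 0, ?_⟩
    ext i j; fin_cases i <;> fin_cases j <;> simp [dg_val, up_val, c] <;> field_simp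
    rw [c] at d; linear_combination d
  · refine .inr ⟨M.1 0 0 / M.1 1 0, Units.mk0 _ (neg_ne_zero.2 c), M.1 1 1 / M.1 1 0, ?_⟩
    ext i j; fin_cases i <;> fin_cases j <;> simp [dg_val, up_val, wy_val] <;> field_simp
    linear_combination -d
theorem dg_mul (a b : F'ˣ) : dg (a * b) = dg a * dg b := by
  ext i j; fin_cases i <;> fin_cases j <;> simp [dg_val, mul_comm]
theorem dg_wy (a : F'ˣ) : dg a * wy F' * dg a = wy F' := by
  ext i j; fin_cases i <;> fin_cases j <;> simp [dg_val, wy_val]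
theorem dg_one : dg (1 : F'ˣ) = 1 := by ext i j; fin_cases i <;> fin_cases j <;> simp [dg_val]
theorem up_ne_one : up (1 : F') ≠ 1 := fun e => up_ne1 one_ne_zero (by rw [e, map_one])
section
variable (h2 : (2 : F') = 0)
include h2
theorem π_bij : Function.Bijective (π F') := ⟨(injective_iff_map_eq_one _).2 fun M h => by
  obtain ⟨a, b, c⟩ := π_one.1 h
  have d := det2 M
  have : M.1 0 0 = 1 := sub_eq_zero.1 (pow_eq_zero_iff (n := 2) (by norm_num) |>.1 (by grind))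
  ext i j; fin_cases i <;> fin_cases j <;> simp [a, b, ← c, this], QuotientGroup.mk'_surjective _⟩
theorem up_up (t : F') : up t * up t = 1 := by rw [← up_add, ← two_mul, h2, zero_mul, up_zero]
theorem wy_wy : wy F' * wy F' = 1 := (π_bij h2).1 (by rw [map_mul, πww, map_one])
theorem cen_up {M : SL(2, F')} (h : M * up 1 = up 1 * M) : ∃ t, M = up t := by
  have d := det2 M
  have a := congrArg (fun N : SL(2, F') => N.1 0 0) h
  have b := congrArg (fun N : SL(2, F') => N.1 0 1) h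
  simp [up_val, Matrix.mul_apply] at a b
  have : M.1 0 0 = 1 := sub_eq_zero.1 (pow_eq_zero_iff (n := 2) (by norm_num) |>.1 (by grind))
  refine ⟨M.1 0 1, ?_⟩
  ext i j; fin_cases i <;> fin_cases j <;> simp [up_val, a, this]
  grind
end

variable [Fintype F'] (h8 : Fintype.card F' = 8)
include h8
theorem cj_cm {M : SL(2, F')} (h : M * M = 1) (n : M ≠ 1) : IsConj (cm 0) M := by
  have h2 := two8 h8
  have d := det2 M
  have a := congrArg (fun N : SL(2, F') => N.1 0 0) h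
  have b := congrArg (fun N : SL(2, F') => N.1 1 1) h
  simp [Matrix.mul_apply] at a b
  have t : M.1 0 0 + M.1 1 1 = 0 := pow_eq_zero_iff (n := 2) (by norm_num) |>.1 (by grind)
  have p := pw8 h8
  by_cases c : M.1 1 0 = 0
  · have c' : M.1 0 1 ≠ 0 := fun c' => n ((π_bij h2).1 ((π_one.2 ⟨c', c, by grind⟩).trans (map_one _).symm))
    have := p (M.1 0 1)
    exact t ▸ conj_cm M 0 (M.1 0 1 ^ 3) (mul_left_cancel₀ c' (by grind))
  · have := p (M.1 1 0)
    exact t ▸ conj_cm M (M.1 1 0 ^ 3) 0 (mul_left_cancel₀ c (by grind))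
theorem ex_θ : ∃ θ : ZMod 7 → F'ˣ, (∀ i j, θ (i + j) = θ i * θ j) ∧ Function.Surjective θ ∧
    ∀ n, (θ (n + 3) : F') = θ (n + 1) + θ n := by
  obtain ⟨ζ, hζ⟩ := ex_ζ h8
  have z1 : ζ ≠ 1 := by rintro rfl; simp at hζ
  have z7 : ζ ^ 7 = 1 := by rw [← pow_card_eq_one' (x := ζ), Nat.card_units, Nat.card_eq_fintype_card, h8]
  have a : ∀ i j : ZMod 7, ζ ^ (i + j).val = ζ ^ i.val * ζ ^ j.val := fun i j => by
    rw [ZMod.val_add, ← pow_eq_pow_mod _ z7, pow_add]
  refine ⟨fun i => ζ ^ i.val, a, fun x => ?_, fun n => ?_⟩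
  · obtain ⟨n, e⟩ := tr8 h8 z1 one_ne_zero x.ne_zero
    exact ⟨n, Units.ext (by rw [e]; simp only; rw [ZMod.val_natCast, ← pow_eq_pow_mod _ z7]; simp)⟩
  · simp only [a, Units.val_mul]
    rw [show (3 : ZMod 7).val = 3 from rfl, show (1 : ZMod 7).val = 1 from rfl, Units.val_pow_eq_pow_val ζ 3, hζ, pow_one]
    ring

theorem core {F : Type u} [Field F] (R : Rp F SL(2, F')) (hy : R.r (wy F' * up 1) = 6) :
    ∃ (e : V F) (X : Finset (V F)) (g : SL(2, F')), Q F e ≠ 0 ∧ X.card ≤ 126 ∧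
      (∀ x, x ∈ X ↔ ∃ p σ, x = sc F σ • R.ρ p e) ∧ (∀ t, ∃ σ, R.ρ (up t) e = sc F σ • e) ∧
      (∀ x, Q F x = Q F e → (∀ t, ∃ σ, R.ρ (up t) x = sc F σ • x) → x ∈ X) ∧ (∀ x ∈ X, (refl (Q F) e).1 x ∈ X) ∧
      ∀ t, R.ρ t * R.ρ g * (refl (Q F) e * refl (Q F) (R.ρ g e)).1 ≠ (refl (Q F) e * refl (Q F) (R.ρ g e)).1 * R.ρ g := by
  classical
  have h2 := two8 h8
  have two := R.two
  obtain ⟨θ, θa, θs, θr⟩ := ex_θ h8
  have θ0 : θ 0 = 1 := by simpa using θa 0 0
  let U : Multiplicative F' →* SL(2, F') := MonoidHom.mk' (fun t => up t.toAdd) fun a b => up_add _ _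
  have m : ∀ s, up s ∈ U.range := fun s => ⟨.ofAdd s, rfl⟩
  obtain ⟨b, w, h⟩ := wt F _ R U.range (by rintro _ ⟨t, rfl⟩; exact up_up h2 _)
  obtain ⟨i, hi⟩ := Finset.card_ne_zero.1 (h.rk _ (m 1) ▸ R.r_ne up_ne_one)
  replace hi := (Finset.mem_filter.1 hi).2
  have a0 : ∀ t, R.ρ (up t) (b i) = sc F (w i (up t)) • b i := fun t => h.act _ (m t) i
  obtain ⟨s1, s2, s3⟩ := sg (fun n => w i (up (θ n))) (fun n => by rw [θr, up_add, h.mul _ (m _) _ (m _)])
    (by rw [θ0]; exact hi)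
  have δ0 := h.ns i
  generalize b i = e0 at a0 δ0
  obtain ⟨c, hc⟩ : ∃ c : ZMod 7 → ℤˣ, c = fun n => w i (up (θ n)) := ⟨_, rfl⟩
  rw [← hc] at s2
  simp only [← congrFun hc] at s1 s3
  obtain ⟨e, he⟩ : ∃ e : ZMod 7 → V F, ∀ k, e k = R.ρ (dg (θ k)) e0 := ⟨_, fun _ => rfl⟩
  have e0' : e 0 = e0 := by rw [he, θ0, dg_one, map_one]; rfl
  have ea : ∀ j k, R.ρ (dg (θ j)) (e k) = e (j + k) := fun j k => by rw [he, he, θa, dg_mul, R.ρ_mul]
  have act : ∀ n k, R.ρ (up (θ n)) (e k) = sc F (c (n - 2 * k)) • e k := fun n k => by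
    rw [he, hc, ← map_smul, ← a0, ← R.ρ_mul, ← R.ρ_mul, dg_up, ← Units.val_mul, ← Units.val_mul, ← θa, ← θa]
    congr 5; ring_nf
  have up' : ∀ t, up t = 1 ∨ ∃ n, up t = up (θ n : F') := fun t => by
    by_cases t0 : t = 0
    · exact .inl (t0 ▸ up_zero)
    · obtain ⟨n, e⟩ := θs (Units.mk0 t t0)
      exact .inr ⟨n, by rw [e]; rfl⟩
  have Qe : ∀ k, Q F (e k) = Q F e0 := fun k => by rw [he, R.Q_ρ]
  have pu : ∀ n x k, polar (Q F) (R.ρ (up (θ n)) x) (e k) = sc F (c (n - 2 * k)) * polar (Q F) x (e k) := fun n x k => by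
    rw [← R.polar_ρ (up (θ n)), ← R.ρ_mul, up_up h2, map_one, act, polar_smul_right]; rfl
  have ng : ∀ a : F, a = -a → a = 0 := fun a e => (mul_eq_zero.1 (by linear_combination e)).resolve_left two
  have ot : ∀ k l, k ≠ l → polar (Q F) (e k) (e l) = 0 := fun k l n => by
    obtain ⟨n, s⟩ := s1 k l n
    have := pu n (e k) l
    rw [act, s, polar_smul_left, sc_neg, smul_eq_mul, neg_mul] at this
    exact (mul_eq_zero.1 (ng _ this.symm)).resolve_left (sc_ne _ _)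
  have sp : Submodule.span F (Set.range e) = ⊤ := (LinearMap.linearIndependent_of_isOrthoᵢ (B := polarBilin (Q F))
    (fun k l n => ot k l n) fun k => (polar_self' _ _).trans_ne (mul_ne_zero two (Qe k ▸ δ0))).span_eq_top_of_card_eq_finrank'
      (by simp)
  have ext : ∀ x y, (∀ k, polar (Q F) x (e k) = polar (Q F) y (e k)) → x = y := fun x y k =>
    sub_eq_zero.1 (Q_nd two _ fun z => by
      exact (polar_sub_left _ _ _ _).trans <| sub_eq_zero.2 (LinearMap.congr_fun (LinearMap.ext_on_range (f := polarBilin (Q F) x) (g := polarBilin (Q F) y) sp k) z))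
  obtain ⟨A, hA⟩ : ∃ A : ZMod 7 → F, ∀ j k, polar (Q F) (R.ρ (wy F') (e j)) (e k) = A (j + k) :=
    ⟨fun n => polar (Q F) (R.ρ (wy F') (e n)) e0, fun j k => by
      simp only
      rw [← R.polar_ρ (dg (θ k)) _ e0, ← he, add_comm, ← ea k j, ← R.ρ_mul, ← R.ρ_mul, dg_wy]⟩
  have y3 : wy F' * up 1 * (wy F' * up 1) * (wy F' * up 1) = 1 := by
    rw [← pow_three']; exact cube (by simp [wy_val, up_val])
  obtain ⟨v, -, hv⟩ := finrank_eq_one_iff'.1 (show finrank F (fix (R.ρ (wy F' * up 1))) = 1 by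
    have := rk_add_fix (R.ρ (wy F' * up 1))
    rw [finrank_V] at this
    rw [Rp.r] at hy; omega)
  have N : ∀ j, ∃ a : F, ∀ k, a * polar (Q F) v.1 (e k) =
      polar (Q F) (e j) (e k) + (sc F (c (0 - 2 * j)) + sc F (c (0 - 2 * k))) * A (j + k) := fun j => by
    have ye : ∀ k, R.ρ (wy F' * up 1) (e k) = sc F (c (0 - 2 * k)) • R.ρ (wy F') (e k) := fun k => by
      rw [R.ρ_mul, ← map_smul, ← act, θ0]; rfl
    obtain ⟨a, ha⟩ := hv ⟨e j + R.ρ (wy F' * up 1) (e j) + R.ρ (wy F' * up 1 * (wy F' * up 1)) (e j), mem_fix.2 (by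
      rw [map_add, map_add, ← R.ρ_mul, ← R.ρ_mul _ (_ * _), ← mul_assoc (_ * _) (_ * _), y3, map_one]
      change _ + e j = _; abel)⟩
    refine ⟨a, fun k => ?_⟩
    rw [← smul_eq_mul, ← polar_smul_left, show a • v.1 = _ from congrArg Subtype.val ha, polar_add_left, polar_add_left,
      ← R.polar_ρ (wy F' * up 1) (R.ρ (_ * (_ * _)) _), ← R.ρ_mul, ← mul_assoc (_ * _) (_ * _), y3, map_one, ye, ye,
      polar_smul_left, polar_smul_right, hA, polar_comm _ _ (R.ρ _ _)]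
    rw [show (1 : Au F (V F)) (e j) = e j from rfl, hA, add_comm k j, smul_eq_mul, smul_eq_mul]; ring
  have Z : ∀ x, Zs c x → A x = 0 := by
    rintro x ⟨i, k, n1, n2, c1, c2, c3, c4⟩
    obtain ⟨a, ha⟩ := N i
    obtain ⟨a', ha'⟩ := N k
    have p1 := ha (x - i)
    have p2 := ha' (x - k)
    have p3 := ha (x - k)
    rw [ot _ _ n1, c1, c2, add_sub_cancel] at p1
    rw [ot _ _ n2, c3, c4, add_sub_cancel] at p2
    rw [ot _ _ (fun e => by rw [← e, c1] at c4; exact absurd c4 (by decide)), c1, c4] at p3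
    simp only [sc_one, sc_neg] at p1 p2 p3
    refine pow_eq_zero_iff (n := 2) (by norm_num) |>.1 (mul_left_cancel₀ (mul_ne_zero two two) ?_)
    linear_combination (exp := 1) (a' * polar (Q F) v.1 (e (x - k))) * p1 + 2 * A x * p2 - a' * polar (Q F) v.1 (e (x - i)) * p3
  have re : ∀ k, (refl (Q F) e0).1 (e k) = sc F (ν k) • e k := fun k => by
    unfold ν
    split_ifs with k0
    · rw [k0, e0', refl_apply_self δ0]; simp
    · rw [refl_apply_of_orth (e0' ▸ ot _ _ (Ne.symm k0))]; simp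
  have pr : ∀ x k, polar (Q F) ((refl (Q F) e0).1 x) (e k) = sc F (ν k) * polar (Q F) x (e k) := fun x k => by
    rw [← orth_polar (refl (Q F) e0), re, polar_smul_right]
    exact congrArg (fun z => _ * polar (Q F) z _) (reflLin_involutive _ _ x)
  let bo : Option F' → SL(2, F') := fun o => o.elim 1 fun t => up t * wy F'
  have mem : ∀ x, x ∈ Finset.univ.image (fun z : Option F' × ZMod 7 × ℤˣ => sc F z.2.2 • R.ρ (bo z.1) (e z.2.1)) ↔
      ∃ p σ, x = sc F σ • R.ρ p e0 := fun x => by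
    simp only [Finset.mem_image, Finset.mem_univ, true_and]
    refine ⟨fun ⟨z, hz⟩ => ⟨bo z.1 * dg (θ z.2.1), z.2.2, by rw [R.ρ_mul, ← he, hz]⟩, ?_⟩
    rintro ⟨p, σ, rfl⟩
    rcases bruhat p with ⟨a, t, rfl⟩ | ⟨s, a, t, rfl⟩ <;> obtain ⟨j, rfl⟩ := θs a
    · exact ⟨(none, j, σ * w i (up t)), by rw [R.ρ_mul, a0, map_smul, ← he, smul_smul, sc_mul, show bo none = 1 from rfl, map_one]; rfl⟩
    · exact ⟨(some s, j, σ * w i (up t)), by rw [R.ρ_mul, a0, map_smul, R.ρ_mul (_ * _), ← he, smul_smul, sc_mul]; rfl⟩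
  refine ⟨e0, _, dg (θ 1), δ0, Finset.card_image_le.trans (by simp [h8]), mem, fun t => ⟨_, a0 t⟩, fun x qx hx => ?_,
    fun x hx => ?_, fun t ht => ?_⟩
  · obtain ⟨k, hk⟩ : ∃ k, polar (Q F) x (e k) ≠ 0 := by
      by_contra! z
      exact δ0 (by rw [← qx, ext x 0 fun k => by rw [z, polar_zero_left], map_zero])
    have xe : x = (polar (Q F) x (e k) / (2 * Q F e0)) • e k := ext _ _ fun l => by
      rw [polar_smul_left, smul_eq_mul]
      by_cases kl : k = l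
      · rw [← kl, polar_self', Qe, div_mul_cancel₀ _ (mul_ne_zero two δ0)]
      obtain ⟨n, s⟩ := s1 k l kl
      obtain ⟨σ, hσ⟩ := hx (θ n)
      have p1 := pu n x k
      have p2 := pu n x l
      rw [hσ, polar_smul_left, smul_eq_mul] at p1 p2
      rw [mul_right_cancel₀ hk p1, s, sc_neg, neg_mul] at p2
      rw [ot k l kl, mul_zero]
      exact (mul_eq_zero.1 (ng _ p2.symm)).resolve_left (sc_ne _ _)
    generalize polar (Q F) x (e k) / (2 * Q F e0) = a at xe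
    rw [xe, QuadraticMap.map_smul, Qe, smul_eq_mul] at qx
    rcases mul_self_eq_one_iff.1 (mul_right_cancel₀ δ0 (qx.trans (one_mul _).symm)) with rfl | rfl
    · exact (mem x).2 ⟨dg (θ k), 1, by rw [xe, ← he, sc_one]⟩
    · exact (mem x).2 ⟨dg (θ k), -1, by rw [xe, ← he, sc_neg, sc_one]⟩
  · obtain ⟨⟨_ | t, j, σ⟩, -, rfl⟩ := Finset.mem_image.1 hx
    · exact (mem _).2 ⟨dg (θ j), σ * ν j, by
        rw [map_smul, show bo none = 1 from rfl, map_one, ← he, sc_mul, ← smul_smul, ← re]; rfl⟩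
    have cm : ∀ x, (refl (Q F) e0).1 (R.ρ (up t) x) = R.ρ (up t) ((refl (Q F) e0).1 x) := fun x => by
      have := refl_conj (Q := Q F) ⟨_, R.iso (up t)⟩ e0
      rw [mul_inv_eq_iff_eq_mul, a0, refl_smul (sc_ne _ _)] at this
      exact (LinearEquiv.congr_fun (congrArg Subtype.val this) x).symm
    obtain ⟨τ, q, hq⟩ : ∃ τ q, (refl (Q F) e0).1 (R.ρ (wy F') (e j)) = sc F τ • R.ρ q (R.ρ (wy F') (e j)) := by
      obtain ⟨τ, s | ⟨n, s⟩⟩ := s2 j
      · refine ⟨τ, 1, ext _ _ fun k => ?_⟩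
        rw [pr, polar_smul_left, map_one, show ∀ z, (1 : Au F (V F)) z = z from fun _ => rfl, hA, smul_eq_mul]
        rcases s k with s | s
        · rw [Z _ s, mul_zero, mul_zero]
        · rw [s]
      · refine ⟨τ, up (θ n), ext _ _ fun k => ?_⟩
        rw [pr, polar_smul_left, pu, hA, smul_eq_mul]
        rcases s k with s | s
        · rw [Z _ s, mul_zero, mul_zero, mul_zero]
        · rw [s, sc_mul, mul_assoc]
    exact (mem _).2 ⟨up t * q * wy F' * dg (θ j), σ * τ, by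
      rw [map_smul, show bo (some t) = up t * wy F' from rfl, R.ρ_mul, cm, hq, map_smul, R.ρ_mul, ← he, R.ρ_mul, R.ρ_mul,
        smul_smul, sc_mul]⟩
  · rw [← he] at ht
    have me : ∀ k, (refl (Q F) e0 * refl (Q F) (e 1)).1 (e k) = sc F (μ k) • e k := fun k => by
      change (refl (Q F) e0).1 ((refl (Q F) (e 1)).1 (e k)) = _
      by_cases k1 : k = 1
      · rw [k1, refl_apply_self (Qe 1 ▸ δ0), map_neg, re]; simp [μ, show ν 1 = 1 from rfl]
      · rw [refl_apply_of_orth (ot _ _ (Ne.symm k1)), re]; simp [μ, ν, k1]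
    have te : ∀ k, R.ρ t (e (1 + k)) = sc F (μ k * μ (1 + k)) • e (1 + k) := fun k => by
      have := LinearEquiv.congr_fun ht (e k)
      simp only [LinearEquiv.mul_apply] at this
      rw [me, map_smul, ea, me, map_smul] at this
      rw [sc_mul, ← smul_smul, ← this, smul_smul, sc_sq, one_smul]
    have e1 : ∀ k, e k ≠ 0 := fun k z => δ0 (by rw [← Qe k, z, map_zero])
    obtain ⟨s, rfl⟩ := cen_up h2 (M := t) (R.inj (LinearEquiv.toLinearMap_injective (LinearMap.ext_on_range sp fun k => by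
      obtain ⟨k, rfl⟩ := add_left_surjective 1 k
      have := act 0 (1 + k)
      rw [θ0, Units.val_one] at this
      simp only [LinearEquiv.coe_coe, R.ρ_mul, this, te, map_smul]
      exact smul_comm _ _ _)))
    rcases up' s with s | ⟨n, s⟩
    · have := te 1
      rw [s, map_one, show μ 1 * μ (1 + 1) = -1 from rfl] at this
      exact absurd (u_inj two (smul_left_injective F (e1 (1 + 1)) (this.symm.trans (by simp)) :
        sc F (-1) = sc F 1)) (by decide)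
    · obtain ⟨k, hk⟩ := s3 n
      exact hk (u_inj two (smul_left_injective F (e1 _) ((act n _).symm.trans (s ▸ te k))))
end L8

open L8 H24.O7 in
theorem l28f (nm : NM.{u}) : L28F.{u} := by
  rintro F _ _ H P h F' _ _ h8 ⟨ε⟩ - hy
  have h2 := two8 h8
  let φ : SL(2, F') ≃* P := (MulEquiv.ofBijective _ (π_bij h2)).trans ε.symm
  let R := h.rp.comp φ.toMonoidHom φ.injective
  have := Fact.mk Nat.prime_three
  obtain ⟨e, X, g, δ0, cX, mem, ue, ei, rf, fin⟩ := core h8 R (hy _ (by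
    rw [MulEquiv.toMonoidHom_eq_coe, MonoidHom.coe_coe, φ.orderOf_eq]
    exact orderOf_eq_prime (cube (by simp [wy_val, up_val])) fun e => by simpa [wy_val, up_val] using congrArg (·.1 0 0) e))
  have nz : ∀ k ∈ H, ∀ p, ∃ q, R.ρ q = glEquiv ι F k * R.ρ p * (glEquiv ι F k)⁻¹ := fun k hk p =>
    ⟨φ.symm ⟨_, h.core.normal k hk _ (φ p).2⟩, by
      change glEquiv ι F (φ (φ.symm _)).1 = _ * glEquiv ι F (φ p).1 * _
      rw [φ.apply_symm_apply, map_mul, map_mul, map_inv]⟩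
  have inv : ∀ p, ∀ x ∈ X, R.ρ p x ∈ X := fun p x hx => by
    obtain ⟨q, σ, rfl⟩ := (mem x).1 hx
    exact (mem _).2 ⟨p * q, σ, by rw [map_smul, R.ρ_mul]⟩
  have sm : ∀ σ, ∀ x ∈ X, sc F σ • x ∈ X := fun σ x hx => by
    obtain ⟨q, τ, rfl⟩ := (mem x).1 hx
    exact (mem _).2 ⟨q, σ * τ, by rw [smul_smul, sc_mul]⟩
  have he : ∀ k ∈ H, glEquiv ι F k e ∈ X := fun k hk => by
    obtain ⟨u, hu⟩ := nz k hk (up 1)
    obtain ⟨p, hp⟩ := isConj_iff.1 ((cj_cm h8 (M := u) (R.inj (by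
      rw [map_mul, hu, conj_mul, ← map_mul, up_up h2, map_one, mul_one, mul_inv_cancel])) fun e => up_ne_one (R.inj (by
        rw [e, map_one, eq_mul_inv_iff_mul_eq, one_mul, left_eq_mul] at hu
        rw [hu, map_one]))).symm.trans (cj_cm h8 (up_up h2 1) up_ne_one))
    have := inv p⁻¹ _ (ei (R.ρ p (glEquiv ι F k e)) ((R.Q_ρ _ _).trans (mem_orth.1 (OmegaV_le (h.om hk)) e)) fun t => by
      obtain ⟨q, hq⟩ := nz k⁻¹ (inv_mem hk) (p⁻¹ * up t * p)
      obtain ⟨s, rfl⟩ := cen_up h2 (M := q) (R.inj (by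
        have a : R.ρ (up 1) = (glEquiv ι F k)⁻¹ * R.ρ (p⁻¹ * up 1 * p) * (glEquiv ι F k)⁻¹⁻¹ := by
          rw [show p⁻¹ * up 1 * p = u by rw [← hp]; group, hu]; group
        rw [map_mul, map_mul, hq, map_inv, a, conj_mul, conj_mul, ← map_mul, ← map_mul]
        congr 3
        calc _ = p⁻¹ * (up t * up 1) * p := by group
          _ = _ := by rw [← up_add, add_comm, up_add]; group))
      obtain ⟨σ, hσ⟩ := ue s
      refine ⟨σ, ?_⟩
      rw [← map_smul, ← map_smul, ← hσ, hq]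
      change (R.ρ (up t) * R.ρ p * glEquiv ι F k) e = (R.ρ p * glEquiv ι F k * _) e
      simp only [map_mul, map_inv]
      congr 1; group)
    rwa [← R.ρ_mul, inv_mul_cancel, map_one] at this
  have e1 : e ∈ X := (mem _).2 ⟨1, 1, by simp⟩
  obtain ⟨k, hk, ek⟩ := nm F H P h X (Q F e) δ0 cX (fun x hx => by
      obtain ⟨q, σ, rfl⟩ := (mem x).1 hx
      rw [QuadraticMap.map_smul, sc_sq, one_smul, R.Q_ρ]) (fun k hk x hx => by
      obtain ⟨p, σ, rfl⟩ := (mem x).1 hx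
      obtain ⟨q, hq⟩ := nz k hk p
      have := sm σ _ (inv q _ (he k hk))
      rwa [hq, LinearEquiv.mul_apply, show (glEquiv ι F k)⁻¹ (glEquiv ι F k e) = e from (glEquiv ι F k).symm_apply_apply e,
        LinearEquiv.mul_apply, ← map_smul] at this) (fun x hx y hy => by
      obtain ⟨p, σ, rfl⟩ := (mem x).1 hx
      have := inv p _ (rf _ (inv p⁻¹ y hy))
      rw [refl_smul (sc_ne _ _), ← refl_conj (Q := Q F) ⟨_, R.iso p⟩ e]
      rwa [map_inv] at this) e e1 _ (inv g e e1)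
  obtain ⟨q, hq⟩ := nz k hk g
  exact fin (q * g⁻¹) (by rw [← map_mul, inv_mul_cancel_right, hq, ← ek, inv_mul_cancel_right])

end H26.O7
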