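/-
S5815: no pentagons (the piece `M5`).
-/
import Cfsg.Agent.H12.O7a

set_option autoImplicit false
set_option linter.unusedSectionVars false

open Module QuadraticMap H12 Cfsg Submodule
namespace H26.O7
universe u

section
variable {F : Type*} [Field F] {τ : F}
def SS (c : F) : Prop := c = 0 ∨ c^2 = 1 ∨ c^4 - 3*c^2 + 1 = 0
structure Tau (τ : F) : Prop where
  sq : τ ^ 2 = τ + 1
  two : (2 : F) ≠ 0
  five : (5 : F) ≠ 0
namespace Tau
variable (t : Tau τ)
include t
theorem nz (a b : ℤ) (e : (a : F) + b * τ = 0) (n : a ^ 2 + a * b - b ^ 2 ∣ 400 := by decide) : False := by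
  obtain ⟨k, hk⟩ := n
  have : ((400 : ℤ) : F) = 0 := by
    rw [hk]; push_cast; linear_combination k * ((a + b - b * τ) * e + b ^ 2 * t.sq)
  exact mul_ne_zero (pow_ne_zero 4 t.two) (pow_ne_zero 2 t.five) (by push_cast at this; linear_combination this)
theorem q4 {c : F} (h : c ^ 4 - 3 * c ^ 2 + 1 = 0) : c ^ 2 = τ + 1 ∨ c ^ 2 = 2 - τ := by
  have : (c ^ 2 - (τ + 1)) * (c ^ 2 - (2 - τ)) = 0 := by linear_combination h - t.sq
  simpa only [mul_eq_zero, sub_eq_zero] using this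
theorem ssc {c : F} (h : SS c) : c = 0 ∨ c = 1 ∨ c = -1 ∨ c = τ ∨ c = -τ ∨ c = 1 - τ ∨ c = -(1 - τ) := by
  rcases h with h | h | h
  · tauto
  · have := sq_eq_one_iff.1 h; tauto
  · rcases t.q4 h with h | h
    · have := sq_eq_sq_iff_eq_or_eq_neg.1 (h.trans t.sq.symm); tauto
    · have := sq_eq_sq_iff_eq_or_eq_neg.1 (show c ^ 2 = (1 - τ) ^ 2 by linear_combination h - t.sq); tauto
theorem ns1 {c : F} (hc : c ^ 2 = 3 * τ + 2) : ¬ SS c := by
  have := t.sq
  rintro (h | h | h)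
  exacts [t.nz 2 3 (by grind), t.nz 1 3 (by grind), t.nz 8 12 (by grind)]
theorem ns2 {c : F} (hc : c ^ 2 = 5 - 3 * τ) : ¬ SS c := by
  have := t.sq
  rintro (h | h | h)
  exacts [t.nz 5 (-3) (by grind), t.nz 4 (-3) (by grind), t.nz 20 (-12) (by grind)]
theorem yy {y : F} (a : SS y) (b : SS (y - 1)) (c : SS (τ * y - τ)) (d : SS (y - τ - 1)) :
    y = 1 ∨ y = τ ∨ (y = -1 ∧ (3 : F) = 0) := by
  have := t.sq
  rcases t.ssc a with e | e | e | e | e | e | e
  · exact (t.ns1 (by grind) d).elim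
  · exact .inl e
  · rcases b with b | b | b
    exacts [(t.nz 2 0 (by grind)).elim, .inr (.inr ⟨e, by grind⟩), (t.nz 5 0 (by grind)).elim]
  · exact .inr (.inl e)
  · exact (t.ns1 (by grind) b).elim
  · exact (t.ns1 (by grind) c).elim
  · exact (t.ns2 (by grind) b).elim
theorem vv {f g : F} (n : f ^ 2 + g ^ 2 + τ * f * g = 3 - τ) (a : SS g) (b : f = 0 ∨ f ^ 2 = 1) :
    f = 2 ∧ g = -τ ∨ f = -2 ∧ g = τ := by
  have := t.sq
  rcases b with b | b <;> rcases a with a | a | a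
  exacts [(t.nz 3 (-1) (by grind)).elim, (t.nz 2 (-1) (by grind)).elim, (t.nz 2 (-2) (by grind)).elim,
    (t.nz 2 (-1) (by grind)).elim, (t.nz 1 (-2) (by
      have : (τ * f * g) ^ 2 = (1 - τ) ^ 2 := by grind
      grind)).elim, by
    rcases t.q4 a with a | a
    · have : (τ * f * g) ^ 2 = (1 - 2 * τ) ^ 2 := by grind
      have : (3 : F) = 0 := by grind
      have : f * g = τ := by grind
      rcases sq_eq_one_iff.1 b with b | b <;> [right; left] <;> constructor <;> grind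
    · have : (τ * f * g) ^ 2 = 0 := by grind
      exact (t.nz 1 0 (by grind)).elim]
theorem exo {p q : F} (n : p ^ 2 + q ^ 2 - τ * p * q = 1) {C : Prop} (c0 : p = 1 ∧ q = 0 ∨ p = -1 ∧ q = 0 → C)
    (c1 : p = 0 ∧ q = 1 ∨ p = 0 ∧ q = -1 → C) (c2 : p = 1 ∧ q = τ ∨ p = -1 ∧ q = -τ → C)
    (c3 : p = τ ∧ q = τ ∨ p = -τ ∧ q = -τ → C) (c4 : p = τ ∧ q = 1 ∨ p = -τ ∧ q = -1 → C)
    (s0 : C ∨ SS (2 * p - τ * q)) (s1 : C ∨ SS (2 * q - τ * p)) (s2 : C ∨ SS ((τ - 1) * p - τ * q))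
    (s3 : C ∨ SS ((τ - 1) * (p + q))) (s4 : C ∨ SS ((τ - 1) * q - τ * p)) : C := by
  by_contra c
  have := t.sq
  have k : ∀ {f g : F}, f ^ 2 + g ^ 2 + τ * f * g = 3 - τ → C ∨ SS f → C ∨ SS g → (f = 2 ∧ g = -τ ∨ f = -2 ∧ g = τ → C) →
      f ^ 2 = τ + 1 ∨ f ^ 2 = 2 - τ := fun n a b d => by
    rcases a.resolve_left c with a | a | a
    exacts [(c (d (t.vv n (b.resolve_left c) (.inl a)))).elim, (c (d (t.vv n (b.resolve_left c) (.inr a)))).elim, t.q4 a]
  have d : ∀ {x : F}, 5 * x = 0 → x = 0 := fun h => (mul_eq_zero.1 h).resolve_left t.five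
  have e : ∀ {x y : F}, 5 * (x - y) = 0 → x = y := fun h => sub_eq_zero.1 (d h)
  have k0 := k (by grind) s0 s1 fun h => c0 (h.imp (fun h => ⟨e (by grind), e (by grind)⟩) fun h => ⟨e (by grind), e (by grind)⟩)
  have k1 := k (by grind) s1 s2 fun h => c1 (h.imp (fun h => ⟨e (by grind), e (by grind)⟩) fun h => ⟨e (by grind), e (by grind)⟩)
  have k2 := k (by grind) s2 s3 fun h => c2 (h.symm.imp (fun h => ⟨e (by grind), e (by grind)⟩) fun h => ⟨e (by grind), e (by grind)⟩)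
  have k3 := k (by grind) s3 s4 fun h => c3 (h.imp (fun h => ⟨e (by grind), e (by grind)⟩) fun h => ⟨e (by grind), e (by grind)⟩)
  have k4 := k (by grind) s4 s0 fun h => c4 (h.symm.imp (fun h => ⟨e (by grind), e (by grind)⟩) fun h => ⟨e (by grind), e (by grind)⟩)
  have s : (2 * p - τ * q) ^ 2 + (2 * q - τ * p) ^ 2 + ((τ - 1) * p - τ * q) ^ 2 + ((τ - 1) * (p + q)) ^ 2 +
    ((τ - 1) * q - τ * p) ^ 2 = 10 := by grind
  rcases k0 with k0 | k0 <;> rcases k1 with k1 | k1 <;> rcases k2 with k2 | k2 <;> rcases k3 with k3 | k3 <;>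
    rcases k4 with k4 | k4 <;> rw [k0, k1, k2, k3, k4] at s <;>
    first | exact t.nz (-5) 5 (by push_cast; linear_combination s) | exact t.nz (-4) 3 (by push_cast; linear_combination s) | exact t.nz (-3) 1 (by push_cast; linear_combination s) | exact t.nz (-2) (-1) (by push_cast; linear_combination s) | exact t.nz (-1) (-3) (by push_cast; linear_combination s) | exact t.nz 0 (-5) (by push_cast; linear_combination s)
end Tau
end

section
variable {F : Type u} [Field F] {δ : F}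
theorem xx_comm (x y : V F) : xx δ x y = xx δ y x := by rw [xx, polar_comm, xx]
theorem xx_add (x y z : V F) : xx δ x (y + z) = xx δ x y + xx δ x z := by simp only [xx, polar_add_right, add_div]
theorem add_xx (x y z : V F) : xx δ (y + z) x = xx δ y x + xx δ z x := by simp only [xx, polar_add_left, add_div]
theorem xx_sub (x y z : V F) : xx δ x (y - z) = xx δ x y - xx δ x z := by simp only [xx, polar_sub_right, sub_div]
theorem sub_xx (x y z : V F) : xx δ (y - z) x = xx δ y x - xx δ z x := by simp only [xx, polar_sub_left, sub_div]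
theorem xx_smul (c : F) (x y : V F) : xx δ x (c • y) = c * xx δ x y := by simp only [xx, polar_smul_right, smul_eq_mul, mul_div_assoc]
theorem smul_xx (c : F) (x y : V F) : xx δ (c • y) x = c * xx δ y x := by simp only [xx, polar_smul_left, smul_eq_mul, mul_div_assoc]
theorem xx_neg (x y : V F) : xx δ x (-y) = -xx δ x y := by simp only [xx, polar_neg_right, neg_div]
theorem neg_xx (x y : V F) : xx δ (-y) x = -xx δ y x := by simp only [xx, polar_neg_left, neg_div]

variable [Fintype F] {Y : Subgroup (Au F (V F))} {R : Set (V F)} {τ : F} {a b w w' z : V F}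
theorem Rt.self (h : Rt Y δ R) (ha : a ∈ R) : xx δ a a = 2 := by
  have := h.ne
  rw [xx, polar_self', h.norm a ha]; field_simp
theorem Rt.rfm (h : Rt Y δ R) (ha : a ∈ R) (hb : b ∈ R) : b - xx δ a b • a ∈ R := by
  have := h.inv _ (h.rf a ha) b hb
  rwa [refl_apply, h.norm a ha, ← div_eq_inv_mul] at this

/-- a pentagon -/
structure Pg (Y : Subgroup (Au F (V F))) (δ : F) (R : Set (V F)) (τ : F) (a b : V F) : Prop extends Rt Y δ R where
  tau : Tau τ
  ha : a ∈ R
  hb : b ∈ R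
  ab : xx δ a b = -τ
  val : ∀ x ∈ R, ∀ y ∈ R, x = y ∨ x = -y ∨ SS (xx δ x y)
  perp : ∀ z ∈ R, z ∉ span F {a, b} → ∃ c ∈ R, c ∈ span F {a, b} ∧ xx δ c z = 0
  nb : ∀ n w, n ≠ 0 → polar (Q F) n b = 0 → polar (Q F) n a = 0 → Ei (Q F) Y n w → polar (Q F) w b = 0

/-- a root outside `U` with given inner products -/
def Vl (δ : F) (R : Set (V F)) (a b : V F) (U : Submodule F (V F)) (s t : F) : Prop :=
  ∃ z ∈ R, z ∉ U ∧ xx δ a z = s ∧ xx δ b z = t

namespace Pg
variable (h : Pg Y δ R τ a b) {U : Submodule F (V F)} {s t : F}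
include h
theorem aa : xx δ a a = 2 := h.toRt.self h.ha
theorem bb : xx δ b b = 2 := h.toRt.self h.hb
theorem ba : xx δ b a = -τ := (xx_comm _ _).trans h.ab
theorem r1 (hU : a ∈ U) (k : Vl δ R a b U s t) : Vl δ R a b U (-s) (t + τ * s) := by
  obtain ⟨z, hz, n, rfl, rfl⟩ := k
  exact ⟨_, h.toRt.rfm h.ha hz, fun e => n (by simpa using add_mem e (U.smul_mem (xx δ a z) hU)),
    by rw [xx_sub, xx_smul, h.aa]; ring, by rw [xx_sub, xx_smul, h.ba]; ring⟩
theorem r2 (hU : b ∈ U) (k : Vl δ R a b U s t) : Vl δ R a b U (s + τ * t) (-t) := by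
  obtain ⟨z, hz, n, rfl, rfl⟩ := k
  exact ⟨_, h.toRt.rfm h.hb hz, fun e => n (by simpa using add_mem e (U.smul_mem (xx δ b z) hU)),
    by rw [xx_sub, xx_smul, h.ab]; ring, by rw [xx_sub, xx_smul, h.bb]; ring⟩
theorem ng (k : Vl δ R a b U s t) : Vl δ R a b U (-s) (-t) := by
  obtain ⟨z, hz, n, rfl, rfl⟩ := k
  exact ⟨_, h.neg z hz, by simpa, xx_neg _ _, xx_neg _ _⟩
theorem vec {p q : F} (p' q' : F) : xx δ (p • a + q • b) (p' • a + q' • b) = 2 * p * p' + 2 * q * q' - τ * (p * q' + q * p') := by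
  simp only [xx_add, add_xx, xx_smul, smul_xx, h.aa, h.bb, h.ab, h.ba]; ring
theorem m1 {p q : F} (k : p • a + q • b ∈ R) : (τ * q - p) • a + q • b ∈ R := by
  convert h.toRt.rfm h.ha k using 1
  simp only [xx_add, xx_smul, h.aa, h.ab]; module
theorem m2 {p q : F} (k : p • a + q • b ∈ R) : p • a + (τ * p - q) • b ∈ R := by
  convert h.toRt.rfm h.hb k using 1
  simp only [xx_add, xx_smul, h.bb, h.ba]; module
theorem roots : (1 : F) • a + (0 : F) • b ∈ R ∧ (0 : F) • a + (1 : F) • b ∈ R ∧ (-1 : F) • a + (-τ) • b ∈ R ∧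
    τ • a + τ • b ∈ R ∧ (-τ) • a + (-1 : F) • b ∈ R := by
  have k1 : (1 : F) • a + (0 : F) • b ∈ R := by simpa using h.ha
  have k2 : (0 : F) • a + (1 : F) • b ∈ R := by simpa using h.hb
  have := h.tau.sq
  refine ⟨k1, k2, ?_, ?_, ?_⟩
  · convert h.neg _ (h.m2 k1) using 1; module
  · convert h.m1 (h.m2 k1) using 3 <;> grind
  · convert h.neg _ (h.m1 k2) using 1; module
theorem zero (hz : z ∈ R) (n : z ∉ span F {a, b}) : xx δ a z = 0 ∨ xx δ b z = 0 ∨ xx δ a z + τ * xx δ b z = 0 ∨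
    xx δ a z + xx δ b z = 0 ∨ τ * xx δ a z + xx δ b z = 0 := by
  obtain ⟨c, hc, m, e⟩ := h.perp z hz n
  obtain ⟨p, q, rfl⟩ := mem_span_pair.1 m
  have e' : p * xx δ a z + q * xx δ b z = 0 := by simpa only [add_xx, smul_xx] using e
  have t := h.tau.sq
  have nn := h.toRt.self hc
  rw [h.vec] at nn
  have li : ∀ {p' q' : F}, p • a + q • b = p' • a + q' • b → p = p' ∧ q = q' := fun {p' q'} k => by
    have k1 := congrArg (xx δ ((1 : F) • a + (0 : F) • b)) k
    have k2 := congrArg (xx δ ((0 : F) • a + (1 : F) • b)) k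
    rw [h.vec, h.vec] at k1 k2
    constructor <;> refine mul_left_cancel₀ h.tau.five ?_ <;> grind
  have k : ∀ {p' q' c : F} {C : Prop}, p' • a + q' • b ∈ R → 2 * p * p' + 2 * q * q' - τ * (p * q' + q * p') = c →
      (p = p' ∧ q = q' ∨ p = -p' ∧ q = -q' → C) → C ∨ SS c := fun {p' q' c C} m e k => by
    rcases h.val _ hc _ m with j | j | j
    exacts [.inl (k (.inl (li j))), .inl (k (.inr (li (j.trans (by module))))), .inr (by rwa [h.vec, e] at j)]
  obtain ⟨r0, r1, r2, r3, r4⟩ := h.roots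
  have τ0 : τ ≠ 0 := by grind
  refine h.tau.exo (p := p) (q := q) (mul_left_cancel₀ h.toRt.two (by linear_combination nn)) ?c0 ?c1 ?c2 ?c3 ?c4
    (k r0 (by ring) (by simpa using ?c0)) (k r1 (by ring) (by simpa using ?c1)) (k r2 (by grind) (by simpa [or_comm] using ?c2))
    (k r3 (by grind) ?c3) (k r4 (by grind) (by simpa [or_comm] using ?c4)) <;> rintro (⟨rfl, rfl⟩ | ⟨rfl, rfl⟩) <;> grind
/-- a standard root -/
theorem std (ha : a ∈ U) (hb : b ∈ U) (hU : U ≠ ⊤) : Vl δ R a b U 0 (-1) := by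
  have t := h.tau.sq
  have le : span F {a, b} ≤ U := span_le.2 (by rintro _ (rfl | rfl) <;> assumption)
  have k0 : ∀ {s t}, Vl δ R a b U s t → s = 0 → t ≠ 0 → Vl δ R a b U 0 (-1) := fun {s t} k s0 t0 => by
    subst s0
    have cv : ∀ {s t s' t'}, Vl δ R a b U s t → s = s' → t = t' → Vl δ R a b U s' t' := fun k e e' => e ▸ e' ▸ k
    have k1 : ∀ {t}, Vl δ R a b U 0 t → t ^ 2 = 2 - τ → Vl δ R a b U 0 (-1) := fun {t} ⟨z, hz, n, e1, e2⟩ e => by
      have t0 : t ≠ 0 := fun k => h.tau.nz 2 (-1) (by grind)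
      have : Vl δ R a b U (-τ) τ := ⟨_, h.toRt.rfm hz h.hb, fun k => n (by
        rw [xx_comm, e2] at k; simpa [t0] using U.smul_mem t⁻¹ (sub_mem hb k)),
        by rw [xx_sub, xx_smul, h.ab, e1]; ring, by rw [xx_sub, xx_smul, h.bb, xx_comm z, e2]; grind⟩
      exact cv (h.ng (h.r2 hb (h.r1 ha this))) (by grind) (by grind)
    obtain ⟨z, hz, n, e1, e2⟩ := id k
    have v : ∀ c ∈ R, c ∈ U → SS (xx δ c z) := fun c hc m => by
      rcases h.val c hc z hz with rfl | rfl | j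
      exacts [(n m).elim, (n (by simpa using m)).elim, j]
    have v2 := v _ h.roots.2.2.1 (add_mem (U.smul_mem _ ha) (U.smul_mem _ hb))
    rw [add_xx, smul_xx, smul_xx, e1, e2] at v2
    rcases v b h.hb hb with j | j | j <;> rw [e2] at j
    · exact (t0 j).elim
    · rcases sq_eq_one_iff.1 j with j | j
      exacts [cv (h.ng k) neg_zero (by rw [j]), j ▸ k]
    · exact (h.tau.q4 j).elim (fun j => (h.tau.ns1 (by grind) v2).elim) (k1 k)
  obtain ⟨z, ⟨hz, p⟩, n⟩ : ∃ z, (z ∈ R ∧ z ∉ (CForm.ofQuad (Q F)).perp (span F {a, b})) ∧ z ∉ U := by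
    by_contra! k
    refine hU (top_le_iff.1 ((H12.O7.rt_span h.toRt (span F {a, b}) h.ha fun e => h.toRt.two ?_).ge.trans (span_le.2 k)))
    rw [← h.aa, xx, show polar (Q F) a a = 0 from ((CForm.mem_perp_pair _).1 e).1, zero_div]
  have k : Vl δ R a b U _ _ := ⟨z, hz, n, rfl, rfl⟩
  have p' : ¬ (xx δ a z = 0 ∧ xx δ b z = 0) := fun e => p ((CForm.mem_perp_pair _).2 ⟨(div_eq_zero_iff.1 e.1).resolve_right h.ne, (div_eq_zero_iff.1 e.2).resolve_right h.ne⟩)
  rcases h.zero hz fun e => n (le e) with e | e | e | e | e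
  · exact k0 k e (by grind)
  · exact k0 (h.r2 hb (h.r1 ha (h.r2 hb (h.r1 ha k)))) (by grind) (by grind)
  · exact k0 (h.r2 hb k) e (by grind)
  · exact k0 (h.r2 hb (h.r1 ha k)) (by grind) (by grind)
  · exact k0 (h.r2 hb (h.r1 ha (h.r2 hb k))) (by grind) (by grind)

section
variable (hw : w ∈ R) (hw' : w' ∈ R) (aw : xx δ a w = 0) (bw : xx δ b w = -1) (aw' : xx δ a w' = 0) (bw' : xx δ b w' = -1)
  {y p q r s : F} (e : xx δ w w' = y)
include hw hw' aw bw aw' bw' e
theorem g4 : xx δ a (p • a + q • b + r • w + s • w') = 2 * p - τ * q ∧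
    xx δ b (p • a + q • b + r • w + s • w') = 2 * q - τ * p - r - s ∧
    xx δ w (p • a + q • b + r • w + s • w') = 2 * r - q + y * s ∧
    xx δ w' (p • a + q • b + r • w + s • w') = 2 * s - q + y * r := by
  simp only [xx_add, xx_smul, h.aa, h.bb, h.ab, h.ba, aw, bw, aw', bw', e, xx_comm w a, xx_comm w b, xx_comm w' a, xx_comm w' b,
    xx_comm w' w, h.toRt.self hw, h.toRt.self hw']
  refine ⟨?_, ?_, ?_, ?_⟩ <;> ring
theorem n4 (k : p • a + q • b + r • w + s • w' ∈ R) : (τ * q - p) • a + q • b + r • w + s • w' ∈ R ∧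
    p • a + (τ * p + r + s - q) • b + r • w + s • w' ∈ R ∧ p • a + q • b + (q - r - y * s) • w + s • w' ∈ R ∧
    p • a + q • b + r • w + (q - s - y * r) • w' ∈ R := by
  obtain ⟨g1, g2, g3, g4⟩ := h.g4 hw hw' aw bw aw' bw' e (p := p) (q := q) (r := r) (s := s)
  refine ⟨?_, ?_, ?_, ?_⟩
  · convert h.toRt.rfm h.ha k using 1; rw [g1]; module
  · convert h.toRt.rfm h.hb k using 1; rw [g2]; module
  · convert h.toRt.rfm hw k using 1; rw [g3]; module
  · convert h.toRt.rfm hw' k using 1; rw [g4]; module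
theorem tw (n : w' ∉ span F {a, b, w}) : y = 1 ∨ y = τ := by
  have t := h.tau.sq
  have τ0 : τ ≠ 0 := by grind
  have N := fun {p q r s} => h.n4 hw hw' aw bw aw' bw' e (p := p) (q := q) (r := r) (s := s)
  have ma : a ∈ span F {a, b, w} := subset_span (by simp)
  have mb : b ∈ span F {a, b, w} := subset_span (by simp)
  have mw : w ∈ span F {a, b, w} := subset_span (by simp)
  have v : ∀ {p q r s c : F}, p • a + q • b + r • w + s • w' ∈ R → s ≠ 0 → 2 * r - q + y * s = c → SS c := fun {p q r s c} k s0 e' => by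
    have m : p • a + q • b + r • w + s • w' ∉ span F {a, b, w} := fun m => n (by
      simpa [s0] using smul_mem _ s⁻¹ (sub_mem m (add_mem (add_mem (smul_mem _ p ma) (smul_mem _ q mb)) (smul_mem _ r mw))))
    rcases h.val w hw _ k with j | j | j
    exacts [(m (j ▸ mw)).elim, (m (neg_mem_iff.1 (j ▸ mw))).elim, by rwa [(h.g4 hw hw' aw bw aw' bw' e).2.2.1, e'] at j]
  have k1 : (1 : F) • a + (0 : F) • b + (0 : F) • w + (0 : F) • w' ∈ R := by simpa using h.ha
  have k2 : (0 : F) • a + (1 : F) • b + (0 : F) • w + (0 : F) • w' ∈ R := by simpa using h.hb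
  have k4 : (0 : F) • a + (0 : F) • b + (0 : F) • w + (1 : F) • w' ∈ R := by simpa using hw'
  rcases h.tau.yy (v k4 one_ne_zero (by ring)) (v (N k2).2.2.2 (by simp) (by ring)) (v (N (N k1).2.1).2.2.2 (by simpa) (by ring))
    (v (N (N (N k2).1).2.2.2).2.1 (by simp) (by grind)) with j | j | ⟨j, h3⟩
  exacts [.inl j, .inr j, by
    obtain ⟨g1, g2, g3, g4⟩ := h.g4 hw hw' aw bw aw' bw' e (p := 0) (q := 0) (r := -1) (s := 1)
    rw [show (0 : F) • a + (0 : F) • b + (-1 : F) • w + (1 : F) • w' = w' - w by module] at g1 g2 g3 g4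
    have z : ∀ {x}, xx δ x (w' - w) = 0 → polar (Q F) (w' - w) x = 0 := fun k =>
      (polar_comm _ _ _).trans ((div_eq_zero_iff.1 k).resolve_right h.ne)
    have q0 : Q F (w' - w) = 0 := (mul_eq_zero.1 ((polar_self' _ _).symm.trans (z (by rw [sub_xx, g3, g4]; grind)))).resolve_left
      h.toRt.two
    have ei := RR.ei (X := Y) (u := w' - w) (w := w) (by
      rw [add_sub_cancel]
      exact ⟨H12.O7.rt_q0 h.toRt hw', H12.O7.rt_q0 h.toRt hw, mul_mem (h.rf _ hw') (h.rf _ hw)⟩) q0 (z (by grind))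
    have := h.nb _ _ (smul_ne_zero (inv_ne_zero (H12.O7.rt_q0 h.toRt hw)) fun k => n (by rwa [sub_eq_zero.1 k]))
      (by rw [polar_smul_left, z (by grind), smul_zero]) (by rw [polar_smul_left, z (by grind), smul_zero]) ei
    rw [xx_comm, xx, this] at bw
    simp at bw]
theorem nxt (hy : y = τ) : ∃ z ∈ R, z ∈ span F {a, b, w, w'} ∧ xx δ a z = 0 ∧ xx δ b z = -1 ∧ xx δ w' z = τ ∧
    ∀ v, xx δ a v = 0 → xx δ b v = -1 → xx δ v z = (τ - 1) * xx δ v w' - xx δ v w + 2 := by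
  have t := h.tau.sq
  have N := fun {p q r s} => h.n4 hw hw' aw bw aw' bw' e (p := p) (q := q) (r := r) (s := s)
  have k2 : (0 : F) • a + (1 : F) • b + (0 : F) • w + (0 : F) • w' ∈ R := by simpa using h.hb
  have k : (-τ) • a + (-2 : F) • b + (-1 : F) • w + (τ - 1) • w' ∈ R := by
    convert h.neg _ (N (N (N (N k2).1).2.2.1).2.2.2).2.1 using 1
    match_scalars <;> grind
  obtain ⟨g1, g2, -, g4⟩ := h.g4 hw hw' aw bw aw' bw' e (p := -τ) (q := -2) (r := -1) (s := τ - 1)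
  refine ⟨_, k, ?_, by grind, by grind, by grind, fun v h1 h2 => ?_⟩
  · refine add_mem (add_mem (add_mem ?_ ?_) ?_) ?_ <;> exact smul_mem _ _ (subset_span (by simp))
  · simp only [xx_add, xx_smul, xx_comm v a, xx_comm v b, h1, h2]; ring
theorem mid (hy : y = 1) : ∃ z ∈ R, xx δ a z = 0 ∧ xx δ b z = -1 ∧ xx δ w z = τ := by
  have t := h.tau.sq
  have N := fun {p q r s} => h.n4 hw hw' aw bw aw' bw' e (p := p) (q := q) (r := r) (s := s)
  have k1 : (1 : F) • a + (0 : F) • b + (0 : F) • w + (0 : F) • w' ∈ R := by simpa using h.ha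
  have k : (τ + 1) • a + (2 * τ) • b + τ • w + τ • w' ∈ R := by
    convert (N (N (N (N (N (N (N k1).2.1).1).2.2.1).2.1).1).2.1).2.2.2 using 1
    match_scalars <;> grind
  obtain ⟨g1, g2, g3, -⟩ := h.g4 hw hw' aw bw aw' bw' e (p := τ + 1) (q := 2 * τ) (r := τ) (s := τ)
  exact ⟨_, k, by grind, by grind, by grind⟩
end

theorem exs (S : Finset (V F)) (c : S.card < 7) (ha : a ∈ S) (hb : b ∈ S) :
    ∃ z ∈ R, z ∉ span F (S : Set (V F)) ∧ xx δ a z = 0 ∧ xx δ b z = -1 :=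
  h.std (subset_span ha) (subset_span hb) fun e => by
    have := finrank_span_finset_le_card (R := F) S
    rw [Set.finrank, e, finrank_top, finrank_V] at this
    omega

theorem false : False := by
  classical
  have t := h.tau.sq
  obtain ⟨w, hw, -, aw, bw⟩ := h.exs {a, b} (Finset.card_le_two.trans_lt (by decide)) (by simp) (by simp)
  obtain ⟨w', hw', n, aw', bw'⟩ := h.exs {a, b, w} (Finset.card_le_three.trans_lt (by decide)) (by simp) (by simp)
  obtain ⟨w2, h2, a2, b2, e2⟩ : ∃ z ∈ R, xx δ a z = 0 ∧ xx δ b z = -1 ∧ xx δ w z = τ :=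
    (h.tw hw hw' aw bw aw' bw' rfl (by simpa using n)).elim (h.mid hw hw' aw bw aw' bw' rfl) fun e => ⟨w', hw', aw', bw', e⟩
  obtain ⟨v, hv, n, av, bv⟩ := h.exs {a, b, w, w2} (Finset.card_le_four.trans_lt (by decide)) (by simp) (by simp)
  rw [show (({a, b, w, w2} : Finset (V F)) : Set (V F)) = {a, b, w, w2} by simp] at n
  set U := span F {a, b, w, w2}
  have sp : ∀ {x y}, x ∈ U → y ∈ U → span F {a, b, x, y} ≤ U := fun hx hy => span_le.2 (by
    rintro _ (rfl | rfl | rfl | rfl) <;> first | assumption | exact subset_span (by simp))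
  have m1 : w ∈ U := subset_span (by simp)
  have m2 : w2 ∈ U := subset_span (by simp)
  obtain ⟨w3, h3, m3, a3, b3, e3, f3⟩ := h.nxt hw h2 aw bw a2 b2 e2 rfl
  obtain ⟨w4, h4, m4, a4, b4, e4, f4⟩ := h.nxt h2 h3 a2 b2 a3 b3 e3 rfl
  replace m4 := sp m2 m3 m4
  obtain ⟨w5, h5, m5, a5, b5, -, f5⟩ := h.nxt h3 h4 a3 b3 a4 b4 e4 rfl
  have k : ∀ {x}, x ∈ R → x ∈ U → xx δ a x = 0 → xx δ b x = -1 → xx δ v x = 1 ∨ xx δ v x = τ := fun hx m h1 h2 =>
    h.tw hx hv h1 h2 av bv (xx_comm _ _) fun e => n (sp m m (by simpa using e))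
  have y1 := k hw m1 aw bw
  have y2 := k h2 m2 a2 b2
  have y3 := k h3 m3 a3 b3
  have y4 := k h4 m4 a4 b4
  have y5 := k h5 (sp m3 m4 m5) a5 b5
  have s : ∀ {x y z : F}, x = 1 ∨ x = τ → y = 1 ∨ y = τ → z = 1 ∨ z = τ → z = (τ - 1) * y - x + 2 → y = 1 ∧ x + z = τ + 1 := by
    rintro x y z (rfl | rfl) (rfl | rfl) (j | j) e <;>
      first | exact ⟨rfl, by grind⟩ | exact (h.tau.nz 1 0 (by grind)).elim
  have s1 := s y1 y2 y3 (f3 v av bv)
  have s2 := s y2 y3 y4 (f4 v av bv)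
  have s3 := s y3 y4 y5 (f5 v av bv)
  exact h.tau.nz 1 (-1) (by grind)
end Pg
end

theorem m5 (dg : DG.{u}) : M5.{u} := by
  intro F _ _ Y δ R h nb h1 h2 x hx y hy ⟨e, h5⟩
  have key : ∀ y ∈ R, xx δ x y ^ 2 = -xx δ x y + 1 → False := fun y hy e => by
    have t : Tau (-xx δ x y) := ⟨by linear_combination e, h.two, h5⟩
    refine Pg.false (τ := -xx δ x y) ⟨h, t, hx, hy, (neg_neg _).symm, fun u hu v hv => (h1 u hu v hv).imp_right
      (Or.imp_right (Or.imp_right (Or.imp_right fun k => by linear_combination k.1))), fun z hz =>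
        h2 x hx y hy z hz ⟨by grind, h5⟩, fun n w n0 a b c => by_contra fun k => nb ((dg F Y δ R h y hy x hx).2 n w n0 a b c k
          ((ne_or_eq _ _).imp_right fun h3 j => t.nz 1 1 ?_))⟩
    rw [xx_comm] at j
    grind
  have : (xx δ x y ^ 2 - (-xx δ x y + 1)) * (xx δ x (-y) ^ 2 - (-xx δ x (-y) + 1)) = 0 := by
    rw [xx_neg]; linear_combination e
  exact (mul_eq_zero.1 this).elim (fun k => key y hy (sub_eq_zero.1 k)) fun k => key _ (h.neg y hy) (sub_eq_zero.1 k)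

end H26.O7
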