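/-
S5815: groups containing minus a reflection (glue of part E).
-/
import Cfsg.Agent.H26.O7J

set_option autoImplicit false

open Module QuadraticMap H12 Cfsg MatrixGroups Subgroup
namespace H26.O7
universe u v

section
variable {K : Type u} [Field K] {G : Type v} [Group G] (R : Rp K G)

theorem Rp.neg_refl {t : G} (ht : t * t = 1) (h6 : R.r t = 6) :
    ∃ u, Q K u ≠ 0 ∧ ∀ x, R.ρ t x = -(refl (Q K) u).1 x := by
  have a := rk_add_fix (R.ρ t)
  rw [finrank_V, ← Rp.r, h6] at a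
  obtain ⟨u, u0, hu⟩ := finrank_eq_one_iff'.1 (by omega : finrank K (fix (R.ρ t)) = 1)
  have tu : R.ρ t u = u := mem_fix.1 u.2
  have k : ∀ x, ∃ c : K, x + R.ρ t x = c • u.1 ∧ c * Q K u = polar (Q K) u x := fun x => by
    obtain ⟨c, hc⟩ := hu ⟨x + R.ρ t x, mem_fix.2 (by rw [map_add, ← R.ρ_mul, ht, map_one, add_comm]; rfl)⟩
    replace hc : x + R.ρ t x = c • u.1 := (congrArg Subtype.val hc).symm
    refine ⟨c, hc, mul_left_cancel₀ R.two ?_⟩
    have := congrArg (polar (Q K) u.1) hc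
    rw [polar_add_right, polar_smul_right, polar_self', ← R.polar_ρ t u (R.ρ t x), ← R.ρ_mul, ht, map_one, tu] at this
    simp only [smul_eq_mul, LinearEquiv.coe_one, id] at this
    linear_combination -this
  have q : Q K u ≠ 0 := fun q => u0 (Subtype.ext (Q_nd R.two u.1 fun x => by
    obtain ⟨c, -, h⟩ := k x
    rw [q, mul_zero] at h
    exact h.symm))
  refine ⟨u, q, fun x => ?_⟩
  obtain ⟨c, h1, h2⟩ := k x
  rw [refl_apply, ← h2, show (Q K u)⁻¹ * (c * Q K u) = c by field_simp, ← h1]; abel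

/-- the group generated by the image and `-1` -/
def Rp.pm : Subgroup (Au K (V K)) where
  carrier := {y | ∃ g, (∀ x, y x = R.ρ g x) ∨ ∀ x, y x = -R.ρ g x}
  one_mem' := ⟨1, .inl fun x => by rw [map_one]⟩
  mul_mem' := by
    rintro a b ⟨g, h | h⟩ ⟨g', h' | h'⟩ <;> refine ⟨g * g', ?_⟩ <;> [left; right; right; left] <;> intro x <;>
      simp [h, h']
  inv_mem' := by
    rintro a ⟨g, h | h⟩ <;> refine ⟨g⁻¹, ?_⟩ <;> [left; right] <;> intro x <;> refine a.symm_apply_eq.2 ?_ <;>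
      simp [h]
/-- the roots -/
def Rp.rts (u : V K) : Set (V K) := {x | ∃ g, x = R.ρ g u ∨ x = -R.ρ g u}

theorem refl_neg (x : V K) : refl (Q K) (-x) = refl (Q K) x := by
  simpa using refl_smul (Q := Q K) (c := -1) (by simp) x

variable {R} {t : G} {u : V K} (hu : ∀ x, R.ρ t x = -(refl (Q K) u).1 x)
include hu
theorem Rp.conj_refl (g : G) (x : V K) : R.ρ (g * t * g⁻¹) x = -(refl (Q K) (R.ρ g u)).1 x := by
  have := refl_conj (Q := Q K) ⟨R.ρ g, R.iso g⟩ u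
  rw [← this, R.ρ_mul, R.ρ_mul, hu, map_neg, map_inv]; rfl

theorem Rp.rt [IsSimpleGroup G] (hi : R.Irr) (t1 : t ≠ 1) (q : Q K u ≠ 0) : Rt R.pm (Q K u) (R.rts u) where
  two := R.two
  ne := q
  le := by
    rintro y ⟨g, h | h⟩ <;> refine mem_orth.2 fun x => ?_ <;> simp [h, R.Q_ρ]
  ex := ⟨u, 1, .inl (by simp)⟩
  norm := by rintro x ⟨g, rfl | rfl⟩ <;> simp [R.Q_ρ]
  rf := by
    rintro x ⟨g, rfl | rfl⟩ <;> refine ⟨g * t * g⁻¹, .inr fun x => ?_⟩ <;> simp only [Rp.conj_refl hu, neg_neg, refl_neg]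
  neg := by
    rintro x ⟨g, rfl | rfl⟩
    exacts [⟨g, .inr rfl⟩, ⟨g, .inl (neg_neg _)⟩]
  inv := by
    rintro y ⟨g, h | h⟩ x ⟨g', rfl | rfl⟩ <;> refine ⟨g * g', ?_⟩ <;> simp [h]
  tr := by
    rintro x ⟨g, rfl | rfl⟩ y ⟨g', rfl | rfl⟩
    · exact ⟨R.ρ (g' * g⁻¹), ⟨_, .inl fun _ => rfl⟩, by simp⟩
    · exact ⟨LinearEquiv.neg K * R.ρ (g' * g⁻¹), ⟨_, .inr fun _ => rfl⟩, by simp⟩
    · exact ⟨LinearEquiv.neg K * R.ρ (g' * g⁻¹), ⟨_, .inr fun _ => rfl⟩, by simp⟩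
    · exact ⟨R.ρ (g' * g⁻¹), ⟨_, .inl fun _ => rfl⟩, by simp⟩
  gen Z h1 h2 := by
    have k : normalClosure {t} ≤ Z.comap R.ρ := closure_le _ |>.2 fun a ha => by
      obtain ⟨_, rfl, c⟩ := Group.mem_conjugatesOfSet_iff.1 ha
      obtain ⟨g, rfl⟩ := isConj_iff.1 c
      have := mul_mem h2 (h1 _ ⟨g, .inl rfl⟩)
      rwa [show LinearEquiv.neg K * _ = R.ρ _ from LinearEquiv.ext fun x => (Rp.conj_refl hu g x).symm] at this
    rw [(IsSimpleGroup.eq_bot_or_eq_top_of_normal (normalClosure {t}) inferInstance).resolve_left fun e =>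
      t1 (mem_bot.1 (e ▸ subset_normalClosure rfl))] at k
    rintro y ⟨g, h | h⟩
    · rw [show y = R.ρ g from LinearEquiv.ext h]; exact k trivial
    · rw [show y = LinearEquiv.neg K * R.ρ g from LinearEquiv.ext h]; exact mul_mem h2 (k trivial)
  irr W hW := hi W fun g => hW _ ⟨g, .inl fun _ => rfl⟩
end

section
variable {K : Type u} [Field K] {G : Type v} [Group G] {R : Rp K G} {δ : K} {a b : G} {x y : V K} (d0 : δ ≠ 0)
  (hx : Q K x = δ) (hy : Q K y = δ) (ha : ∀ v, R.ρ a v = -(refl (Q K) x).1 v) (hb : ∀ v, R.ρ b v = -(refl (Q K) y).1 v)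
include d0 hx hy ha hb
theorem comm_of_xx (h : x = y ∨ x = -y ∨ xx δ x y = 0) : Commute a b := by
  refine R.inj (LinearEquiv.ext fun v => ?_)
  rw [R.ρ_mul, R.ρ_mul, ha, hb, hb, ha]
  rcases h with rfl | rfl | h
  · rfl
  · rw [refl_neg]
  · have h1 : polar (Q K) x y = 0 := by simpa [xx, d0] using h
    have h2 := (polar_comm _ y x).trans h1
    simp only [refl_apply, map_neg, polar_sub_right, polar_smul_right, h1, h2, smul_zero]
    module
theorem cube_of_xx (h : xx δ x y ^ 2 = 1) : (a * b) ^ 3 = 1 := by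
  refine R.inj (LinearEquiv.ext fun v => ?_)
  have h2 := polar_comm (Q K) y x
  have e : polar (Q K) x y = xx δ x y * δ := by rw [xx]; field_simp
  rw [pow_three, R.ρ_mul, R.ρ_mul, R.ρ_mul, R.ρ_mul, R.ρ_mul, map_one]
  simp only [ha, hb, map_neg, neg_neg, refl_apply, polar_sub_right, polar_smul_right, h2, e, hx, hy, polar_self', smul_eq_mul,
    LinearEquiv.coe_one, id]
  generalize xx δ x y = c at h
  generalize polar (Q K) x v = α
  generalize polar (Q K) y v = β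
  rcases sq_eq_one_iff.1 h with rfl | rfl <;> match_scalars <;> field_simp <;> ring
end

theorem Cx.real {F : Type u} [Field F] [Fintype F] {H P : Subgroup (GL ι F)} (h : Cx F H P) {F₁ : Subfield F}
    (b : Basis ι F (V F)) (hb : ∀ g, ∀ i j, b.repr (h.rp.ρ g (b j)) i ∈ F₁) : F₁ = ⊤ := by
  by_contra e
  refine h.core.no_subfield F₁ e ⟨⟨b.toMatrix (Pi.basisFun F ι), (Pi.basisFun F ι).toMatrix b,
    Basis.toMatrix_mul_toMatrix_flip _ _, Basis.toMatrix_mul_toMatrix_flip _ _⟩, ?_⟩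
  rintro _ ⟨g, hg, rfl⟩ i j
  have := basis_toMatrix_mul_linearMap_toMatrix_mul_basis_toMatrix b (Pi.basisFun F ι) b (Pi.basisFun F ι)
    (Matrix.toLin' (g : Matrix ι ι F))
  rw [LinearMap.toMatrix_eq_toMatrix', LinearMap.toMatrix'_toLin'] at this
  change (b.toMatrix (Pi.basisFun F ι) * g.1 * (Pi.basisFun F ι).toMatrix b : Matrix ι ι F) i j ∈ F₁
  rw [this, LinearMap.toMatrix_apply]
  exact hb ⟨g, hg⟩ i j

theorem tc (bc : BC.{u, u}) (p1 : P1.{u}) (m4 : M4.{u}) (m5 : M5.{u}) (dk : DK.{u}) (rt : RT.{u}) (en : EN.{u})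
    (t1 : TT1.{u}) (t2 : TT2.{u}) (t3 : TT3.{u}) : TC.{u} := by
  intro F _ _ H P h nc
  obtain ⟨hi, hs, hna, -⟩ := (bc F F).2 H P h
  replace hi := hi h.rp fun _ _ => rfl
  simp only [Rp.NoC, not_forall, not_not] at nc
  obtain ⟨t, tt, h6⟩ := nc
  set R := h.rp
  have n1 : t ≠ 1 := by rintro rfl; rw [Rp.r, map_one, rk_one] at h6; omega
  obtain ⟨u, q, hu⟩ := R.neg_refl tt h6
  have hR := Rp.rt hu hi n1 q
  have top : ∀ F₁ : Subfield F, (∀ x ∈ R.rts u, ∀ y ∈ R.rts u, xx (Q F u) x y ^ 2 ∈ F₁) → F₁ = ⊤ := fun F₁ h1 => by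
    obtain ⟨b, hb⟩ := (rt F _ _ _ F₁ hR).2 h1
    exact h.real b fun g => hb _ ⟨g, .inl fun _ => rfl⟩
  have nb : ¬ Big R.pm := fun hb => by
    obtain ⟨n, w, F₁, n0, w0, c5, h1, h2⟩ := dk F _ _ _ hR hb
    obtain rfl := top F₁ ((rt F _ _ _ F₁ hR).1 n w n0 w0 c5 h1 h2)
    have := en F _ _ _ hR (by rwa [← Nat.card_eq_fintype_card, ← Nat.card_congr Subfield.topEquiv.toEquiv]) n w n0 w0
      fun c => h1 c trivial
    refine h.mx.1.not_ge fun g hg => ?_
    rw [← H11.coe_qOdd, omegaGL_eq] at hg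
    obtain ⟨k, e | e⟩ := this hg
    · rw [show g = k.1 from (glEquiv ι F).injective (LinearEquiv.ext e)]; exact h.core.le k.2
    · have d := mem_SLV.1 (OmegaV_le_SLV hg)
      rw [show (glHom ι F g : V F →ₗ[F] V F) = (-1 : F) • (R.ρ k : V F →ₗ[F] V F) from LinearMap.ext fun x => by
        simpa using e x, LinearMap.det_smul, R.det, finrank_V] at d
      exact (R.two (by linear_combination -d)).elim
  have a1 := p1 F _ _ _ hR nb
  have a4 := m4 F _ _ _ hR (fun x hx y hy => (a1 x hx y hy).1) fun x hx y hy z hz => ((a1 x hx y hy).2 z hz).1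
  have a0 : ∀ x ∈ R.rts u, ∀ y ∈ R.rts u, x = y ∨ x = -y ∨ xx (Q F u) x y = 0 ∨ Od (xx (Q F u) x y ^ 2) :=
    fun x hx y hy => by have := (a1 x hx y hy).1; have := a4 x hx y hy; tauto
  have a5 := m5 F _ _ _ hR nb a0 fun x hx y hy z hz => ((a1 x hx y hy).2 z hz).2
  have a : ∀ x ∈ R.rts u, ∀ y ∈ R.rts u, (x = y ∨ x = -y ∨ xx (Q F u) x y = 0) ∨ xx (Q F u) x y ^ 2 = 1 :=
    fun x hx y hy => by have := a0 x hx y hy; have := a5 x hx y hy; unfold Od at *; tauto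
  obtain ⟨p, hp⟩ := CharP.exists F
  have : Fact p.Prime := ⟨CharP.char_is_prime F p⟩
  have cp : Fintype.card F = p := by
    rw [← Subfield.card_bot F p, top ⊥ fun x hx y hy => ?_, Nat.card_congr Subfield.topEquiv.toEquiv, Nat.card_eq_fintype_card]
    have e : xx (Q F u) y y = 2 := by rw [xx, polar_self', hR.norm y hy]; field_simp
    rcases a x hx y hy with (rfl | rfl | c) | c
    · rw [e]; exact pow_mem (ofNat_mem _ 2) 2
    · rw [xx, polar_neg_left, neg_div, neg_sq, ← xx, e]; exact pow_mem (ofNat_mem _ 2) 2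
    · rw [c]; exact pow_mem (zero_mem _) 2
    · rw [c]; exact one_mem _
  have rD : ∀ d ∈ conjugatesOf t, ∃ x ∈ R.rts u, ∀ v, R.ρ d v = -(refl (Q F) x).1 v := fun d hd => by
    obtain ⟨g, rfl⟩ := isConj_iff.1 hd
    exact ⟨_, ⟨g, .inl rfl⟩, Rp.conj_refl hu g⟩
  have dd : ∀ d ∈ conjugatesOf t, d * d = 1 := fun d hd => by
    obtain ⟨g, rfl⟩ := isConj_iff.1 hd
    rw [conj_mul, tt, mul_one, mul_inv_cancel]
  have hD : IsThreeTranspositionClass (conjugatesOf t) := by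
    refine ⟨⟨fun d hd => orderOf_eq_prime (by rw [pow_two, dd d hd]) ?_, fun d hd e he => ?_⟩, ⟨t, mem_conjugatesOf_self, rfl⟩, ?_⟩
    · rintro rfl; exact n1 (isConj_one_left.1 hd)
    · obtain ⟨x, hx, h1⟩ := rD d hd
      obtain ⟨y, hy, h2⟩ := rD e he
      refine (a x hx y hy).imp (fun c => ?_) (cube_of_xx q (hR.norm x hx) (hR.norm y hy) h1 h2)
      rw [(comm_of_xx q (hR.norm x hx) (hR.norm y hy) h1 h2 c).mul_pow, pow_two, pow_two, dd d hd, dd e he, mul_one]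
    · rw [← (IsSimpleGroup.eq_bot_or_eq_top_of_normal (normalClosure {t}) inferInstance).resolve_left fun e =>
        n1 (mem_bot.1 (e ▸ subset_normalClosure rfl)), normalClosure]
      simp [Group.conjugatesOfSet]
  refine ⟨?_, cp ▸ Fact.out⟩
  suffices ∃ m, Nonempty (P ≃* Matrix.symplecticGroup (Fin m) (ZMod 2)) from this.elim fun m => t2 F P R m hna
  by_cases h3 : (3 : F) = 0
  · refine t3 F H P h ?_ _ hD
    rw [cp]
    exact (Nat.prime_dvd_prime_iff_eq Fact.out Nat.prime_three).1 ((CharP.cast_eq_zero_iff F p 3).1 (by simpa using h3))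
  refine t1 P _ hna hD fun d hd e he c hc => ?_
  obtain ⟨x, hx, h1⟩ := rD d hd
  obtain ⟨y, hy, h2⟩ := rD e he
  obtain ⟨z, hz, h3'⟩ := rD c hc
  have nx := hR.norm x hx
  have ny := hR.norm y hy
  have nz := hR.norm z hz
  refine (a x hx y hy).elim (fun k => .inl (comm_of_xx q nx ny h1 h2 k)) fun k1 => .inr ?_
  refine (a z hz x hx).elim (fun k => .inl (comm_of_xx q nz nx h3' h1 k)) fun k2 => .inr ?_
  refine (a z hz y hy).elim (fun k => .inl (comm_of_xx q nz ny h3' h2 k)) fun k3 => .inr ?_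
  have hw := hR.inv _ (hR.rf x hx) y hy
  have h4 : ∀ v, R.ρ (d * e * d) v = -(refl (Q F) ((refl (Q F) x).1 y)).1 v := fun v => by
    rw [← refl_conj, refl_inv, R.ρ_mul, R.ρ_mul, h1, h2, h1]; simp
  refine (a z hz _ hw).elim (comm_of_xx q nz (hR.norm _ hw) h3' h4) fun k4 => (h3 ?_).elim
  have e : xx (Q F u) z ((refl (Q F) x).1 y) = xx (Q F u) z y - xx (Q F u) x y * xx (Q F u) z x := by
    simp only [xx, refl_apply, polar_sub_right, polar_smul_right, nx, smul_eq_mul]; field_simp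
  rw [e] at k4
  have h2' := R.two
  rcases sq_eq_one_iff.1 k1 with e1 | e1 <;> rcases sq_eq_one_iff.1 k2 with e2 | e2 <;>
    rcases sq_eq_one_iff.1 k3 with e3 | e3 <;> rw [e1, e2, e3] at k4 <;>
    first | linear_combination k4 | (exfalso; norm_num at k4)

end H26.O7
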